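import Mathlib

/-!
# The numerical contradiction
-/

set_option autoImplicit false

namespace Cfsg.Agent.H656.PM2Arith

/-- Upper bound for the block of `ζ`. -/
theorem upper {p k r s : ℝ} (hp : 7 ≤ p) (hk : 1 ≤ k) (hs : |s| ≤ k) (hr : |r| ≤ |s| + 1) :
    r ^ 2 / (k * p + 1) - s ^ 2 / ((k + 1) * p - 1) ≤ (7 * p - 5) / (2 * p ^ 2) := by
  have hD1 : 0 < k * p + 1 := by nlinarith
  have hD2 : 0 < (k + 1) * p - 1 := by nlinarith
  have hD12 : k * p + 1 ≤ (k + 1) * p - 1 := by nlinarith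
  have hs0 : 0 ≤ |s| := abs_nonneg s
  have h1 : r ^ 2 ≤ (|s| + 1) ^ 2 := by
    rw [← sq_abs r]
    exact pow_le_pow_left₀ (abs_nonneg r) hr 2
  have h2 : s ^ 2 = |s| ^ 2 := (sq_abs s).symm
  have h3 : r ^ 2 / (k * p + 1) ≤ (|s| + 1) ^ 2 / (k * p + 1) :=
    div_le_div_of_nonneg_right h1 hD1.le
  have h4 : (|s| + 1) ^ 2 / (k * p + 1) - |s| ^ 2 / ((k + 1) * p - 1) ≤
      (k + 1) ^ 2 / (k * p + 1) - k ^ 2 / ((k + 1) * p - 1) := by
    have h5 : (|s| + 1) ^ 2 / (k * p + 1) - |s| ^ 2 / ((k + 1) * p - 1) =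
        |s| ^ 2 * (1 / (k * p + 1) - 1 / ((k + 1) * p - 1)) + (2 * |s| + 1) * (1 / (k * p + 1)) := by
      ring
    have h6 : (k + 1) ^ 2 / (k * p + 1) - k ^ 2 / ((k + 1) * p - 1) =
        k ^ 2 * (1 / (k * p + 1) - 1 / ((k + 1) * p - 1)) + (2 * k + 1) * (1 / (k * p + 1)) := by
      ring
    rw [h5, h6]
    have h7 : 0 ≤ 1 / (k * p + 1) - 1 / ((k + 1) * p - 1) := by
      rw [sub_nonneg]
      exact one_div_le_one_div_of_le hD1 hD12
    have h8 : |s| ^ 2 ≤ k ^ 2 := pow_le_pow_left₀ hs0 hs 2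
    have h9 : 0 ≤ 1 / (k * p + 1) := by positivity
    have h10 := mul_le_mul_of_nonneg_right h8 h7
    have h11 := mul_le_mul_of_nonneg_right (by linarith : 2 * |s| + 1 ≤ 2 * k + 1) h9
    linarith
  have h12 : (k + 1) ^ 2 / (k * p + 1) - k ^ 2 / ((k + 1) * p - 1) ≤ (7 * p - 5) / (2 * p ^ 2) := by
    rw [div_sub_div _ _ hD1.ne' hD2.ne', div_le_div_iff₀ (by positivity) (by positivity)]
    have hK : 0 ≤ k * (k + 1) - 2 := by nlinarith
    have h13 : 0 ≤ (k * (k + 1) - 2) * (p ^ 2 * (p - 1)) := by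
      apply mul_nonneg hK
      apply mul_nonneg (by positivity)
      linarith
    have h14 : 0 ≤ 7 * p ^ 2 - 12 * p + 5 := by nlinarith
    nlinarith [h13, h14]
  rw [h2]
  linarith

/-- Lower bound for the principal block, case `a = -1`. -/
theorem lower_neg {p n d v : ℝ} (hp : 7 ≤ p) (hn : 0 ≤ n) (hd : d = p * n + (p - 1))
    (hv : |v| ≤ n) : 1 - 2 / p < 1 - v ^ 2 / d + (v - 1) ^ 2 / (d - 1) := by
  have hpn : 0 ≤ p * n := by positivity
  have hd0 : 0 < d := by rw [hd]; linarith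
  have hd1 : 0 < d - 1 := by rw [hd]; linarith
  have hv' : v ≤ n := (le_abs_self v).trans hv
  have h1 : -v ^ 2 / d + (v - 1) ^ 2 / (d - 1) = (v ^ 2 - 2 * v * d + d) / (d * (d - 1)) := by
    rw [div_add_div _ _ hd0.ne' hd1.ne']
    congr 1
    ring
  have h2 : -2 / p < (v ^ 2 - 2 * v * d + d) / (d * (d - 1)) := by
    rw [div_lt_div_iff₀ (by linarith) (by positivity)]
    have h3 : v * d ≤ n * d := mul_le_mul_of_nonneg_right hv' hd0.le
    have h4 : 0 ≤ v ^ 2 := sq_nonneg v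
    have h5 : 0 ≤ p * v ^ 2 := by positivity
    have h6 : p * (v * d) ≤ p * (n * d) := mul_le_mul_of_nonneg_left h3 (by linarith)
    have h7 : 0 < d * (3 * p - 4) := mul_pos hd0 (by linarith)
    have h8 : d * (p * n) = d * (d - (p - 1)) := by rw [hd]; ring
    nlinarith [h5, h6, h7, h8]
  have h3 : 1 - v ^ 2 / d + (v - 1) ^ 2 / (d - 1) = 1 + (-v ^ 2 / d + (v - 1) ^ 2 / (d - 1)) := by
    ring
  rw [h3, h1]
  have h4 : -2 / p = -(2 / p) := by ring
  rw [h4] at h2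
  linarith

/-- Lower bound for the principal block, case `a = 1`. -/
theorem lower_pos {p n d v : ℝ} (hp : 7 ≤ p) (hn : 1 ≤ n) (hd : d = p * n + 1)
    (hv : |v| ≤ n + 1) : 1 - 5 / (p + 2) ≤ 1 + v ^ 2 / d - (1 + v) ^ 2 / (d + 1) := by
  have hpn : p ≤ p * n := by nlinarith
  have hd0 : 0 < d := by rw [hd]; linarith
  have hd1 : 0 < d + 1 := by linarith
  have hv' : v ≤ n + 1 := (le_abs_self v).trans hv
  have h1 : v ^ 2 / d - (1 + v) ^ 2 / (d + 1) = (v ^ 2 - 2 * v * d - d) / (d * (d + 1)) := by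
    rw [div_sub_div _ _ hd0.ne' hd1.ne']
    congr 1
    ring
  have h2 : -5 / (p + 2) ≤ (v ^ 2 - 2 * v * d - d) / (d * (d + 1)) := by
    rw [div_le_div_iff₀ (by linarith) (by positivity)]
    have h3 : v * d ≤ (n + 1) * d := mul_le_mul_of_nonneg_right hv' hd0.le
    have h5 : 0 ≤ (p + 2) * v ^ 2 := by positivity
    have h6 : (p + 2) * (v * d) ≤ (p + 2) * ((n + 1) * d) := mul_le_mul_of_nonneg_left h3 (by linarith)
    have h7 : 0 ≤ d * ((n - 1) * (3 * p - 4)) := by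
      apply mul_nonneg hd0.le
      apply mul_nonneg (by linarith)
      linarith
    have h8 : d * (p * n) = d * (d - 1) := by rw [hd]; ring
    nlinarith [h5, h6, h7, h8]
  have h4 : -5 / (p + 2) = -(5 / (p + 2)) := by ring
  rw [h4] at h2
  linarith

/-- **The contradiction.** -/
theorem contra {p k r s d v : ℝ} {T : ℝ} (hp : 7 ≤ p) (hk : 1 ≤ k) (hs : |s| ≤ k)
    (hr : |r| ≤ |s| + 1)
    (h1 : r ^ 2 / (k * p + 1) - s ^ 2 / ((k + 1) * p - 1) + 1 / (p - 2) = T)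
    (hcase : (∃ n, 0 ≤ n ∧ d = p * n + (p - 1) ∧ |v| ≤ n ∧
        1 - v ^ 2 / d + (v - 1) ^ 2 / (d - 1) = T) ∨
      (∃ n, 1 ≤ n ∧ d = p * n + 1 ∧ |v| ≤ n + 1 ∧ 1 + v ^ 2 / d - (1 + v) ^ 2 / (d + 1) = T ∧
        (11 ≤ p ∨ (p = 7 ∧ n = 1 ∧ v = 0)))) : False := by
  have hu := upper hp hk hs hr
  have hT : T ≤ (7 * p - 5) / (2 * p ^ 2) + 1 / (p - 2) := by linarith
  have hp0 : 0 < p := by linarith
  have hp2 : 0 < p - 2 := by linarith
  rcases hcase with ⟨n, hn, hd, hv, h2⟩ | ⟨n, hn, hd, hv, h2, h3 | ⟨h3, h4, h5⟩⟩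
  · have hl := lower_neg hp hn hd hv
    rw [h2] at hl
    have h3 : (7 * p - 5) / (2 * p ^ 2) + 1 / (p - 2) + 2 / p ≤ 1 := by
      rw [div_add_div _ _ (by positivity) hp2.ne', div_add_div _ _ (by positivity) hp0.ne',
        div_le_one (by positivity)]
      have e1 : 0 ≤ p ^ 2 * (p - 7) := mul_nonneg (by positivity) (by linarith)
      nlinarith
    linarith
  · have hl := lower_pos hp hn hd hv
    rw [h2] at hl
    have h3 : (7 * p - 5) / (2 * p ^ 2) + 1 / (p - 2) + 5 / (p + 2) < 1 := by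
      rw [div_add_div _ _ (by positivity) hp2.ne', div_add_div _ _ (by positivity) (by positivity),
        div_lt_one (by positivity)]
      have e1 : 0 ≤ p ^ 3 * (p - 11) := mul_nonneg (by positivity) (by linarith)
      have e2 : 0 < p ^ 3 := by positivity
      have e3 : 0 < p ^ 2 := by positivity
      nlinarith
    linarith
  · rw [h3] at hT hd
    rw [h5] at h2
    rw [hd, h4] at h2
    norm_num at h2 hT
    linarith

end Cfsg.Agent.H656.PM2Arith
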