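import Mathlib
import Cfsg.Prelude.Def_Blocks
import Cfsg.Agent.Blocks.ExistsModular
import Cfsg.Agent.S0953
import Cfsg.Agent.H593.D1Lower
import Cfsg.Agent.CharactersDeep.SmallDegree
import Cfsg.Agent.H656.PM2Struct

/-!
# Blocks over central characters when `|N_G(P) : C_G(P)| = 2`

`P` is a Sylow `p`-subgroup of order `p`, `C_G(P) = P × L` with `L` central in `G` and
`|N_G(P) : C_G(P)| = 2`. The characters of `G` over a character `θ` of `L` which do not vanish on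
`P \ {1}` are `χ₁`, `χ₂` and `(p - 1) / 2` exceptional ones.
-/

set_option autoImplicit false
set_option linter.unusedSectionVars false
set_option linter.unusedVariables false

namespace Cfsg.Agent.H656.PM2Block

open Cfsg ZMod
open scoped ComplexConjugate
open Cfsg.Agent.Blocks.Local
open Cfsg.Agent.Blocks.Basic
open Cfsg.Agent.Blocks.CyclicGroup
open Cfsg.Agent.H593.D1Local
open Cfsg.Agent.H593.D1Char
open Cfsg.Agent.H593.D1Sec
open Cfsg.Agent.H593.D1Gram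
open Cfsg.Agent.H593.D1Block
open Cfsg.Agent.H593.D1Block2

/-- The combinatorial part. -/
theorem comb {I Ω : Type*} [Fintype I] [Fintype Ω] [DecidableEq Ω] (hΩ : 2 ≤ Fintype.card Ω)
    (a : I → Ω → ℤ)
    (hrows : ∀ χ, (∀ i, a χ i = 1) ∨ (∀ i, a χ i = -1) ∨
        (∃ i₀, ∀ i, a χ i = if i = i₀ then 1 else 0) ∨
        (∃ i₀, ∀ i, a χ i = if i = i₀ then -1 else 0))
    (hgram : ∀ i j, ∑ χ, a χ i * a χ j = (2 : ℤ) + if i = j then 1 else 0) :
    ∃ (c₁ c₂ : I) (a₁ a₂ : ℤ) (Ψ : Ω → I) (s : Ω → ℤ), c₁ ≠ c₂ ∧ (a₁ = 1 ∨ a₁ = -1) ∧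
      (a₂ = 1 ∨ a₂ = -1) ∧ (∀ i, a c₁ i = -a₁) ∧ (∀ i, a c₂ i = -a₂) ∧
      (∀ ω, s ω = 1 ∨ s ω = -1) ∧ (∀ ω i, a (Ψ ω) i = if i = ω then s ω else 0) ∧
      (∀ c, c = c₁ ∨ c = c₂ ∨ ∃ ω, c = Ψ ω) ∧ Function.Injective Ψ ∧
      (∀ ω, Ψ ω ≠ c₁ ∧ Ψ ω ≠ c₂) := by
  classical
  have hnt : Nontrivial Ω := Fintype.one_lt_card_iff_nontrivial.1 (by omega)
  obtain ⟨i₁, i₂, hi⟩ := exists_pair_ne Ω
  let X : Finset I := Finset.univ.filter fun c => ∀ i j, a c i = a c j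
  have hXmem : ∀ c, c ∈ X ↔ ∀ i j, a c i = a c j := fun c => by simp [X]
  have hX1 : ∀ c ∈ X, (∀ i, a c i = 1) ∨ (∀ i, a c i = -1) := by
    intro c hc
    rw [hXmem] at hc
    rcases hrows c with h | h | ⟨i₀, h⟩ | ⟨i₀, h⟩
    · exact Or.inl h
    · exact Or.inr h
    · exfalso
      obtain ⟨j, hj⟩ := exists_ne i₀
      have h1 := hc i₀ j
      rw [h, h, if_pos rfl, if_neg hj] at h1
      exact one_ne_zero h1
    · exfalso
      obtain ⟨j, hj⟩ := exists_ne i₀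
      have h1 := hc i₀ j
      rw [h, h, if_pos rfl, if_neg hj] at h1
      norm_num at h1
  have hY1 : ∀ c, c ∉ X → ∃ (s : ℤ) (i₀ : Ω), (s = 1 ∨ s = -1) ∧
      ∀ i, a c i = if i = i₀ then s else 0 := by
    intro c hc
    rw [hXmem] at hc
    rcases hrows c with h | h | ⟨i₀, h⟩ | ⟨i₀, h⟩
    · exact absurd (fun i j => by rw [h, h]) hc
    · exact absurd (fun i j => by rw [h, h]) hc
    · exact ⟨1, i₀, Or.inl rfl, h⟩
    · exact ⟨-1, i₀, Or.inr rfl, h⟩
  have hX2 : ∀ c ∈ X, ∀ i j, a c i * a c j = 1 := by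
    intro c hc i j
    rcases hX1 c hc with h | h <;> rw [h, h] <;> rfl
  have hXc : X.card = 2 := by
    have h1 := hgram i₁ i₂
    rw [if_neg hi, add_zero] at h1
    have h2 : ∑ χ, a χ i₁ * a χ i₂ = ∑ χ, if χ ∈ X then (1 : ℤ) else 0 := by
      refine Finset.sum_congr rfl fun c _ => ?_
      by_cases hc : c ∈ X
      · rw [if_pos hc, hX2 c hc]
      · rw [if_neg hc]
        obtain ⟨s, i₀, -, h⟩ := hY1 c hc
        rw [h, h]
        by_cases h3 : i₁ = i₀
        · rw [if_neg (fun h4 : i₂ = i₀ => hi (h3.trans h4.symm)), mul_zero]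
        · rw [if_neg h3, zero_mul]
    rw [h2, Finset.sum_boole] at h1
    have h3 : Finset.univ.filter (fun χ => χ ∈ X) = X := by ext; simp
    rw [h3] at h1
    exact_mod_cast h1
  have hone : ∀ ω : Ω, ((Finset.univ.filter fun c => c ∉ X ∧ a c ω ≠ 0).card : ℤ) = 1 := by
    intro ω
    have h1 := hgram ω ω
    rw [if_pos rfl] at h1
    have h2 : ∀ c, a c ω * a c ω = (if c ∈ X then (1 : ℤ) else 0) +
        (if c ∉ X ∧ a c ω ≠ 0 then (1 : ℤ) else 0) := by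
      intro c
      by_cases hc : c ∈ X
      · rw [if_pos hc, if_neg (fun h => h.1 hc), hX2 c hc, add_zero]
      · rw [if_neg hc]
        obtain ⟨s, i₀, hs, h⟩ := hY1 c hc
        rw [h]
        by_cases h3 : ω = i₀
        · rw [if_pos h3]
          rcases hs with h4 | h4 <;> rw [h4, if_pos ⟨hc, by norm_num⟩] <;> norm_num
        · rw [if_neg h3]
          simp
    rw [Finset.sum_congr rfl fun c _ => h2 c, Finset.sum_add_distrib, Finset.sum_boole,
      Finset.sum_boole] at h1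
    have h3 : Finset.univ.filter (fun χ => χ ∈ X) = X := by ext; simp
    rw [h3, hXc] at h1
    push_cast at h1
    linarith
  obtain ⟨c₁, c₂, hne, hX⟩ := Finset.card_eq_two.1 hXc
  have hc₁ : c₁ ∈ X := by rw [hX]; simp
  have hc₂ : c₂ ∈ X := by rw [hX]; simp
  have hex : ∀ ω, ∃ c, (c ∉ X ∧ a c ω ≠ 0) ∧ ∀ d, d ∉ X → a d ω ≠ 0 → d = c := by
    intro ω
    have h1 : (Finset.univ.filter fun c => c ∉ X ∧ a c ω ≠ 0).card = 1 := by
      exact_mod_cast hone ω
    obtain ⟨c, hc⟩ := Finset.card_eq_one.1 h1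
    have h2 : c ∈ Finset.univ.filter fun c => c ∉ X ∧ a c ω ≠ 0 := by rw [hc]; simp
    refine ⟨c, (Finset.mem_filter.1 h2).2, fun d hd hd' => ?_⟩
    have h3 : d ∈ Finset.univ.filter fun c => c ∉ X ∧ a c ω ≠ 0 :=
      Finset.mem_filter.2 ⟨Finset.mem_univ _, hd, hd'⟩
    rw [hc] at h3
    exact Finset.mem_singleton.1 h3
  choose Ψ hΨ hΨ' using hex
  have hsgn : ∀ c ∈ X, ∃ b : ℤ, (b = 1 ∨ b = -1) ∧ ∀ i, a c i = -b := by
    intro c hc
    rcases hX1 c hc with h | h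
    · exact ⟨-1, Or.inr rfl, fun i => by rw [h]; rfl⟩
    · exact ⟨1, Or.inl rfl, fun i => by rw [h]⟩
  obtain ⟨a₁, ha₁, h1⟩ := hsgn c₁ hc₁
  obtain ⟨a₂, ha₂, h2⟩ := hsgn c₂ hc₂
  have hs : ∀ ω, ∃ s : ℤ, (s = 1 ∨ s = -1) ∧ ∀ i, a (Ψ ω) i = if i = ω then s else 0 := by
    intro ω
    obtain ⟨s, i₀, hs, h⟩ := hY1 (Ψ ω) (hΨ ω).1
    have h3 : ω = i₀ := by
      by_contra hcon
      apply (hΨ ω).2
      rw [h, if_neg hcon]
    subst h3
    exact ⟨s, hs, h⟩
  choose s hs1 hs2 using hs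
  refine ⟨c₁, c₂, a₁, a₂, Ψ, s, hne, ha₁, ha₂, h1, h2, hs1, hs2, ?_, ?_, ?_⟩
  rotate_left
  · intro ω ω' hω
    by_contra hcon
    have h3 := hs2 ω ω
    rw [if_pos rfl, hω, hs2, if_neg hcon] at h3
    rcases hs1 ω with h | h <;> rw [h] at h3 <;> norm_num at h3
  · intro ω
    exact ⟨fun h3 => (hΨ ω).1 (h3 ▸ hc₁), fun h3 => (hΨ ω).1 (h3 ▸ hc₂)⟩
  intro c
  by_cases hc : c ∈ X
  · rw [hX] at hc
    simp only [Finset.mem_insert, Finset.mem_singleton] at hc
    rcases hc with h | h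
    · exact Or.inl h
    · exact Or.inr (Or.inl h)
  · right; right
    obtain ⟨t, i₀, ht, h⟩ := hY1 c hc
    refine ⟨i₀, hΨ' i₀ c hc ?_⟩
    rw [h, if_pos rfl]
    rcases ht with h | h <;> rw [h] <;> norm_num

variable {G : Type*} [Group G] [Fintype G] {p : ℕ} [hp : Fact p.Prime] {K : Subgroup G}

/-- The characters over `θ`. -/
theorem apply_mul_of_ne {P : Subgroup G} [Fintype (LL P K)]
    (hc : ∀ l : LL P K, ((l : K) : G) ∈ Subgroup.center G)
    (θ : IrrCharacter (LL P K)) (χ : IrrCharacter G) {x : G}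
    (hne : DD (θ : LL P K → ℂ) (χ : G → ℂ) x ≠ 0) :
    (θ : LL P K → ℂ) 1 = 1 ∧ ∀ (g : G) (l : LL P K), (χ : G → ℂ) (g * ((l : K) : G)) = (χ : G → ℂ) g * (θ : LL P K → ℂ) l := by
  classical
  have hcomm : ∀ l l' : LL P K, l * l' = l' * l := by
    intro l l'
    apply Subtype.ext
    apply Subtype.ext
    exact Subgroup.mem_center_iff.1 (hc l') ((l : K) : G)
  have hω : ∀ l : LL P K, ∃ ω : ℂ, ‖ω‖ = 1 ∧ ∀ g, (χ : G → ℂ) (g * ((l : K) : G)) = ω * (χ : G → ℂ) g :=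
    fun l => Cfsg.Agent.CharactersDeep.SmallDegree.exists_central_mul χ.2
      (fun g => Subgroup.mem_center_iff.1 (hc l) g)
  choose μ hμ1 hμ using hω
  have hθω : ∀ l : LL P K, ∃ ω : ℂ, ‖ω‖ = 1 ∧ ∀ g, (θ : LL P K → ℂ) (g * l) = ω * (θ : LL P K → ℂ) g :=
    fun l => Cfsg.Agent.CharactersDeep.SmallDegree.exists_central_mul θ.2 (fun g => hcomm g l)
  choose ν hν1 hν using hθω
  obtain ⟨d, hd, hd1⟩ := Cfsg.Agent.Characters.Core.isIrr_apply_one θ.2
  obtain ⟨e, he, he1⟩ := Cfsg.Agent.Characters.Core.isIrr_apply_one χ.2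
  have hd0 : (θ : LL P K → ℂ) 1 ≠ 0 := by rw [hd1]; exact_mod_cast hd.ne'
  have he0 : (χ : G → ℂ) 1 ≠ 0 := by rw [he1]; exact_mod_cast he.ne'
  -- the product `μ ν̄` is a homomorphism with nonzero sum
  have hμm : ∀ l l', μ (l * l') = μ l * μ l' := by
    intro l l'
    have h1 := hμ (l * l') 1
    have h2 := hμ l' (1 * ((l : K) : G))
    rw [hμ l 1, mul_assoc] at h2
    push_cast at h1
    rw [h1] at h2
    apply mul_right_cancel₀ he0
    rw [h2]
    ring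
  have hνm : ∀ l l', ν (l * l') = ν l * ν l' := by
    intro l l'
    have h1 := hν (l * l') 1
    have h2 := hν l' (1 * l)
    rw [hν l 1, mul_assoc] at h2
    rw [h1] at h2
    apply mul_right_cancel₀ hd0
    rw [h2]
    ring
  have hsum : ∑ l : LL P K, μ l * conj (ν l) ≠ 0 := by
    intro h0
    apply hne
    rw [DD_def]
    have h1 : ∀ l : LL P K, (χ : G → ℂ) (x * ((l : K) : G)) * conj ((θ : LL P K → ℂ) l) =
        ((χ : G → ℂ) x * conj ((θ : LL P K → ℂ) 1)) * (μ l * conj (ν l)) := by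
      intro l
      have h2 := hν l 1
      rw [one_mul] at h2
      rw [hμ l x, h2, map_mul]
      ring
    rw [Finset.sum_congr rfl fun l _ => h1 l, ← Finset.mul_sum, h0, mul_zero, mul_zero]
  have heq : ∀ l, μ l = ν l := by
    intro l
    have h1 : (μ l * conj (ν l)) * ∑ l' : LL P K, μ l' * conj (ν l') =
        ∑ l' : LL P K, μ l' * conj (ν l') := by
      rw [Finset.mul_sum]
      refine (Finset.sum_congr rfl fun l' _ => ?_).trans
        (Equiv.sum_comp (Equiv.mulLeft l) (fun l' => μ l' * conj (ν l')))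
      rw [Equiv.coe_mulLeft, hμm, hνm, map_mul]
      ring
    have h2 : μ l * conj (ν l) = 1 := by
      apply mul_right_cancel₀ hsum
      rw [h1, one_mul]
    have h3 : ν l * conj (ν l) = 1 := by
      rw [Complex.mul_conj, Complex.normSq_eq_norm_sq, hν1]; norm_num
    have h4 : conj (ν l) ≠ 0 := by
      intro h5
      rw [h5, mul_zero] at h3
      exact zero_ne_one h3
    exact mul_right_cancel₀ h4 (h2.trans h3.symm)
  have hθ1 : (θ : LL P K → ℂ) 1 = 1 := by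
    have h1 := Cfsg.Agent.Characters.Core.classInner_irr_self θ.2
    rw [Cfsg.Agent.Characters.Core.classInner_def] at h1
    have h2 : ∀ l : LL P K, (θ : LL P K → ℂ) l * conj ((θ : LL P K → ℂ) l) = (d : ℂ) ^ 2 := by
      intro l
      have h3 := hν l 1
      rw [one_mul] at h3
      have h4 : ν l * conj (ν l) = 1 := by
        rw [Complex.mul_conj, Complex.normSq_eq_norm_sq, hν1]; norm_num
      rw [h3, hd1, map_mul, Complex.conj_natCast]
      linear_combination ((d : ℂ) ^ 2) * h4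
    rw [Finset.sum_congr rfl fun l _ => h2 l, Finset.sum_const, Finset.card_univ, nsmul_eq_mul,
      ← Nat.card_eq_fintype_card, inv_mul_cancel_left₀ (by exact_mod_cast Nat.card_pos.ne')] at h1
    have h3 : d ^ 2 = 1 := by exact_mod_cast h1
    have h4 : d = 1 := by
      have := (Nat.pow_eq_one.1 h3)
      rcases this with h | h
      · exact h
      · omega
    rw [hd1, h4, Nat.cast_one]
  refine ⟨hθ1, fun g l => ?_⟩
  have h3 := hν l 1
  rw [one_mul, hθ1, mul_one] at h3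
  rw [hμ l g, h3, heq l, mul_comm]

/-- The coefficient function of a character over `θ`. -/
theorem DD_of_mul {P : Subgroup G} [Fintype (LL P K)] (θ : IrrCharacter (LL P K)) (χ : G → ℂ)
    (hχ : ∀ (g : G) (l : LL P K), χ (g * ((l : K) : G)) = χ g * (θ : LL P K → ℂ) l) (x : G) :
    DD (θ : LL P K → ℂ) χ x = χ x := by
  have h1 := Cfsg.Agent.Characters.Core.classInner_irr_self θ.2
  rw [Cfsg.Agent.Characters.Core.classInner_def] at h1
  rw [DD_def]
  have h2 : ∀ l : LL P K, χ (x * ((l : K) : G)) * conj ((θ : LL P K → ℂ) l) =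
      χ x * ((θ : LL P K → ℂ) l * conj ((θ : LL P K → ℂ) l)) := by
    intro l
    rw [hχ]
    ring
  rw [Finset.sum_congr rfl fun l _ => h2 l, ← Finset.mul_sum, mul_left_comm, h1, mul_one]

/-- **The characters over `θ` not vanishing on `P \ {1}`.** -/
theorem main (P : Sylow p G) (h : Loc p (P : Subgroup G) K) [Fintype (LL (P : Subgroup G) K)]
    [Fintype (IrrCharacter G)]
    (hc : ∀ l : LL (P : Subgroup G) K, ((l : K) : G) ∈ Subgroup.center G)
    (hi : (LL (P : Subgroup G) K).index = 2) (h5 : 5 ≤ p) {z : G} (hz : orderOf z = p)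
    (hzP : z ∈ (P : Subgroup G)) (θ : IrrCharacter (LL (P : Subgroup G) K)) (χ₀ : IrrCharacter G)
    (hχ₀ : ¬ p ∣ charDegree (χ₀ : G → ℂ)) {m₀ : ZMod p} (hm₀ : m₀ ≠ 0)
    (hne : DD (θ : LL (P : Subgroup G) K → ℂ) (χ₀ : G → ℂ) (u z m₀) ≠ 0) :
    ∃ (χ₁ χ₂ : IrrCharacter G) (a₁ a₂ : ℤ) (Ω : Type) (_ : Fintype Ω) (Ψ : Ω → IrrCharacter G)
      (ε : Ω → ℤ), χ₁ ≠ χ₂ ∧ (a₁ = 1 ∨ a₁ = -1) ∧ (a₂ = 1 ∨ a₂ = -1) ∧
      (∀ ω, ε ω = 1 ∨ ε ω = -1) ∧ 2 * Fintype.card Ω = p - 1 ∧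
      (∀ (W : IrrCharacter G → ℂ) (S : ℂ), (∀ m : ZMod p, m ≠ 0 →
        ∑ χ, W χ * conj (DD (θ : LL (P : Subgroup G) K → ℂ) (χ : G → ℂ) (u z m)) = S) →
        ∀ ω, a₁ * W χ₁ + a₂ * W χ₂ - ε ω * W (Ψ ω) = S) ∧
      (∀ g : G, ¬ p ∣ orderOf g → ∀ ω,
        a₁ * (χ₁ : G → ℂ) g + a₂ * (χ₂ : G → ℂ) g = ε ω * (Ψ ω : G → ℂ) g) ∧
      (∀ m : ZMod p, m ≠ 0 → (χ₁ : G → ℂ) (u z m) = a₁) ∧
      (∀ m : ZMod p, m ≠ 0 → (χ₂ : G → ℂ) (u z m) = a₂) ∧
      (∀ ω, ∑ m : (ZMod p)ˣ, (Ψ ω : G → ℂ) (u z (m : ZMod p)) = -2 * ε ω) ∧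
      (∀ χ : IrrCharacter G, (χ = χ₁ ∨ χ = χ₂ ∨ ∃ ω, χ = Ψ ω) →
        ∀ (g : G) (l : LL (P : Subgroup G) K),
          (χ : G → ℂ) (g * ((l : K) : G)) = (χ : G → ℂ) g * (θ : LL (P : Subgroup G) K → ℂ) l) ∧
      (∀ χ : IrrCharacter G, (∃ m : ZMod p, m ≠ 0 ∧
        DD (θ : LL (P : Subgroup G) K → ℂ) (χ : G → ℂ) (u z m) ≠ 0) →
          χ = χ₁ ∨ χ = χ₂ ∨ ∃ ω, χ = Ψ ω) ∧
      Function.Injective Ψ ∧ (∀ ω, Ψ ω ≠ χ₁ ∧ Ψ ω ≠ χ₂) ∧
      (∀ ω, ∑ m : (ZMod p)ˣ, (Ψ ω : G → ℂ) (u z (m : ZMod p)) *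
        conj ((Ψ ω : G → ℂ) (u z (m : ZMod p))) = 2 * p - 4) := by
  classical
  have := Fintype.ofFinite K
  obtain ⟨M, hM⟩ := Cfsg.Agent.Blocks.ExistsModular.exists_isPModular (Fact.out : p.Prime)
  have hMp : M.IsPrime := hM.2.1.isPrime
  obtain ⟨B, hBdef⟩ : ∃ B, B = blockOf M (χ₀ : G → ℂ) := ⟨_, rfl⟩
  have hB : IsPBlock M B := ⟨χ₀, hBdef⟩
  have hχB : χ₀ ∈ B := by rw [hBdef]; exact mem_blockOf_self χ₀
  have : Fintype B := Fintype.ofFinite _
  have hBP : IsDefectGroup p M B (P : Subgroup G) :=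
    Cfsg.Agent.S0953.isDefectGroup_of_degree hM P hB hχB hχ₀
  have hG : (Nat.card G).factorization p = 1 := by
    have h1 := (P.card_eq_multiplicity).symm.trans h.card
    exact Nat.pow_right_injective hp.out.two_le (by simpa using h1)
  have hu1 : ∀ m : ZMod p, m ≠ 0 → u z m ≠ 1 := fun m hm h => hm ((u_eq_one_iff hz).1 h)
  have huP : ∀ m : ZMod p, u z m ∈ (P : Subgroup G) := fun m => u_mem_P h hz hzP m
  have hind := induced_of_ne h hM (huP m₀) (hu1 m₀ hm₀) hB hχB hne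
  obtain ⟨Ω, hΩ1, hΩ2, Wt, a, hmul, hcard, hrows, hgram, hWt, hWt0, hWt1, hconst, hsum,
    hsq⟩ :=
    PM2Struct.structure_thm' h hM hB hBP hind hz hzP hG
      (fun ψ hψ => Cfsg.Agent.H593.D1Lower.lower h hM hB hind hz hzP ψ hψ)
  have hrel : (LL (P : Subgroup G) K).relIndex (stab h θ) = 2 := by
    have h1 : stab h θ = ⊤ := by
      rw [eq_top_iff]
      intro k _
      rw [mem_stab]
      apply Subtype.ext
      funext l
      rw [cj_apply]
      refine congrArg (θ : LL (P : Subgroup G) K → ℂ) (Subtype.ext (Subtype.ext ?_))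
      show (k : G) * ((l : K) : G) * (k : G)⁻¹ = ((l : K) : G)
      have h2 := Subgroup.mem_center_iff.1 (hc l) (k : G)
      rw [h2, mul_assoc, mul_inv_cancel, mul_one]
    rw [h1, Subgroup.relIndex_top_right, hi]
  rw [hrel] at hmul hcard
  simp only [hrel] at hgram hsum hsq
  push_cast at hgram hsum hsq
  obtain ⟨c₁, c₂, a₁, a₂, Ψ, s, hne12, ha₁, ha₂, hc₁, hc₂, hs, hΨ, hall, hinj, hdisj⟩ := comb (by omega) a hrows
    (by simpa using hgram)
  have hmulB : ∀ χ : B, (θ : LL (P : Subgroup G) K → ℂ) 1 = 1 ∧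
      ∀ (g : G) (l : LL (P : Subgroup G) K), ((χ : IrrCharacter G) : G → ℂ) (g * ((l : K) : G)) =
        ((χ : IrrCharacter G) : G → ℂ) g * (θ : LL (P : Subgroup G) K → ℂ) l := by
    intro χ
    obtain ⟨m, hm, hm'⟩ :=
      Cfsg.Agent.H593.D1Block3.exists_DD_ne h hM hB hBP hind hz hzP hG χ.2
    exact apply_mul_of_ne hc θ χ hm'
  have hDD : ∀ (χ : B) (x : G), DD (θ : LL (P : Subgroup G) K → ℂ)
      ((χ : IrrCharacter G) : G → ℂ) x = ((χ : IrrCharacter G) : G → ℂ) x :=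
    fun χ x => DD_of_mul θ _ (hmulB χ).2 x
  have hW : ∀ (W : IrrCharacter G → ℂ) (S : ℂ), (∀ m : ZMod p, m ≠ 0 →
        ∑ χ, W χ * conj (DD (θ : LL (P : Subgroup G) K → ℂ) (χ : G → ℂ) (u z m)) = S) →
        ∀ ω, a₁ * W (c₁ : IrrCharacter G) + a₂ * W (c₂ : IrrCharacter G) -
          s ω * W (Ψ ω : IrrCharacter G) = S := by
    intro W S hS ω
    have h1 : ∑ c : B, (a c ω : ℂ) * W (c : IrrCharacter G) = -S := by
      have h2 : ∀ c : B, (a c ω : ℂ) * W (c : IrrCharacter G) =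
          ∑ m : ZMod p, Wt ω m * (W (c : IrrCharacter G) *
            conj (DD (θ : LL (P : Subgroup G) K → ℂ)
              ((c : IrrCharacter G) : G → ℂ) (u z m))) := by
        intro c
        rw [hWt, Finset.sum_mul]
        exact Finset.sum_congr rfl fun m _ => by ring
      rw [Finset.sum_congr rfl fun c _ => h2 c, Finset.sum_comm]
      have h3 : ∀ m : ZMod p, ∑ c : B, Wt ω m * (W (c : IrrCharacter G) *
            conj (DD (θ : LL (P : Subgroup G) K → ℂ)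
              ((c : IrrCharacter G) : G → ℂ) (u z m))) = Wt ω m * S := by
        intro m
        rw [← Finset.mul_sum]
        by_cases hm : m = 0
        · rw [hm, hWt0, zero_mul, zero_mul]
        · rw [sum_block_eq h hM hB hind (huP m) (hu1 m hm) W, hS m hm]
      rw [Finset.sum_congr rfl fun m _ => h3 m, ← Finset.sum_mul, hWt1]
      ring
    have h2 : ∑ c : B, (a c ω : ℂ) * W (c : IrrCharacter G) =
        -(a₁ : ℂ) * W (c₁ : IrrCharacter G) + -(a₂ : ℂ) * W (c₂ : IrrCharacter G) +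
          s ω * W (Ψ ω : IrrCharacter G) := by
      have hΨ1 : Ψ ω ≠ c₁ := (hdisj ω).1
      have hΨ2 : Ψ ω ≠ c₂ := (hdisj ω).2
      rw [← Finset.sum_subset (Finset.subset_univ ({c₁, c₂, Ψ ω} : Finset B))]
      · rw [Finset.sum_insert (by
            simp only [Finset.mem_insert, Finset.mem_singleton, not_or]
            exact ⟨hne12, hΨ1.symm⟩),
          Finset.sum_insert (by
            simp only [Finset.mem_singleton]
            exact hΨ2.symm), Finset.sum_singleton, hc₁, hc₂, hΨ, if_pos rfl]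
        push_cast
        ring
      · intro c _ hc'
        simp only [Finset.mem_insert, Finset.mem_singleton, not_or] at hc'
        rcases hall c with h3 | h3 | ⟨ω', h3⟩
        · exact absurd h3 hc'.1
        · exact absurd h3 hc'.2.1
        · have h4 : ω ≠ ω' := by
            rintro rfl
            exact hc'.2.2 h3
          rw [h3, hΨ, if_neg h4, Int.cast_zero, zero_mul]
    rw [h2] at h1
    linear_combination -h1
  have hsum1 : ∀ ω, ∑ i, (a (Ψ ω) i : ℂ) = s ω := by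
    intro ω
    have h3 : ∀ i, (a (Ψ ω) i : ℂ) = if i = ω then (s ω : ℂ) else 0 := by
      intro i
      rw [hΨ]
      split_ifs <;> simp
    rw [Finset.sum_congr rfl fun i _ => h3 i, Finset.sum_ite_eq' Finset.univ ω,
      if_pos (Finset.mem_univ _)]
  refine ⟨c₁, c₂, a₁, a₂, Ω, inferInstance, fun ω => (Ψ ω : IrrCharacter G), s,
    fun h3 => hne12 (Subtype.ext h3), ha₁, ha₂, hs, hmul, hW, ?_, ?_, ?_, ?_, ?_, ?_,
    fun ω ω' h3 => hinj (Subtype.ext h3), fun ω => ⟨fun h3 => (hdisj ω).1 (Subtype.ext h3),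
      fun h3 => (hdisj ω).2 (Subtype.ext h3)⟩, ?_⟩
  · intro g hg ω
    have h1 := hW (fun χ => (χ : G → ℂ) g) 0 (fun m hm => by
      rw [sum_DD, Finset.sum_eq_zero, mul_zero]
      intro l _
      rw [Cfsg.Agent.H593.D1Lower.card_filter_regular h (huP m) (hu1 m hm) l hg, Nat.cast_zero,
        mul_zero]) ω
    linear_combination h1
  · intro m hm
    rw [← hDD c₁, hconst c₁ _ hc₁ m hm]
    push_cast
    ring
  · intro m hm
    rw [← hDD c₂, hconst c₂ _ hc₂ m hm]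
    push_cast
    ring
  · intro ω
    have h1 := hsum (Ψ ω)
    rw [Finset.sum_congr rfl fun (m : (ZMod p)ˣ) _ => hDD (Ψ ω) (u z (m : ZMod p))] at h1
    rw [h1, hsum1]
    ring
  · intro χ hχ g l
    have hχB : χ ∈ B := by
      rcases hχ with h1 | h1 | ⟨ω, h1⟩
      · rw [h1]; exact c₁.2
      · rw [h1]; exact c₂.2
      · rw [h1]; exact (Ψ ω).2
    exact (hmulB ⟨χ, hχB⟩).2 g l
  · rintro χ ⟨m, hm, hm'⟩
    have hχB : χ ∈ B := by
      by_contra hcon
      exact hm' (DD_eq_zero h hM hB hind hcon (huP m) (hu1 m hm))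
    rcases hall ⟨χ, hχB⟩ with h1 | h1 | ⟨ω, h1⟩
    · exact Or.inl (congrArg Subtype.val h1)
    · exact Or.inr (Or.inl (congrArg Subtype.val h1))
    · exact Or.inr (Or.inr ⟨ω, congrArg Subtype.val h1⟩)
  · intro ω
    have h1 := hsq (Ψ ω)
    simp only [hDD] at h1
    have h2 : ∑ i, (a (Ψ ω) i : ℂ) ^ 2 = 1 := by
      have h3 : ∀ i, (a (Ψ ω) i : ℂ) ^ 2 = if i = ω then (1 : ℂ) else 0 := by
        intro i
        rw [hΨ]
        split_ifs
        · rcases hs ω with h | h <;> rw [h] <;> norm_num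
        · simp
      rw [Finset.sum_congr rfl fun i _ => h3 i, Finset.sum_ite_eq' Finset.univ ω,
        if_pos (Finset.mem_univ _)]
    have h3 : (s ω : ℂ) ^ 2 = 1 := by rcases hs ω with h | h <;> rw [h] <;> norm_num
    rw [h2, hsum1] at h1
    rw [h1]
    linear_combination (-4 : ℂ) * h3

end Cfsg.Agent.H656.PM2Block
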