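import Mathlib
import Cfsg.Prelude.Def_Blocks
import Cfsg.Agent.Characters.Linear
import Cfsg.Agent.Characters.ClassMul
import Cfsg.Agent.Classification.QDW.CentralEnd
import Cfsg.Agent.H656.PM2Centre

/-!
# The involution inverting `P`, class algebra constants and the dihedral bound
-/

set_option autoImplicit false
set_option linter.unusedSectionVars false
set_option linter.unusedVariables false

namespace Cfsg.Agent.H656.PM2Count

open Cfsg ZMod
open scoped ComplexConjugate
open Cfsg.Agent.Blocks.Basic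
open Cfsg.Agent.Blocks.CyclicGroup
open Cfsg.Agent.H593.D1Local
open Cfsg.Agent.H593.D1Sec
open Cfsg.Agent.H593.D1Gram
open Cfsg.Agent.H593.D1Block
open Cfsg.Agent.H593.D1Block2
open Cfsg.Agent.H656.PM2Centre

variable {G : Type*} [Group G] [Fintype G] {p : ℕ} [hp : Fact p.Prime] {K : Subgroup G}

/-- The situation: `P = ⟨z⟩`, `C_G(P) = P × L` with `L` central of odd order, `x` an involution
of the complement `K`, inverting `P`, and `|K : L| = 2`. -/
structure Sit (P : Sylow p G) (K : Subgroup G) (z x : G) : Prop where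
  loc : Loc p (P : Subgroup G) K
  cen : ∀ l : LL (P : Subgroup G) K, ((l : K) : G) ∈ Subgroup.center G
  idx : (LL (P : Subgroup G) K).index = 2
  odd : Odd (Nat.card (LL (P : Subgroup G) K))
  ord : orderOf z = p
  mem : z ∈ (P : Subgroup G)
  xK : x ∈ K
  xL : (⟨x, xK⟩ : K) ∉ LL (P : Subgroup G) K
  xx : x * x = 1
  inv : ∀ m : ZMod p, x * u z m * x⁻¹ = u z (-m)
  gt : 5 < p

/-- Existence of the situation in a perfect group. -/
theorem exists_sit (P : Sylow p G) (hP : Nat.card P = p) (h5 : 5 < p)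
    (hnn : ¬ (P : Subgroup G).Normal) (hperf : commutator G = ⊤) (ζ : G → ℂ)
    (hζ : IsIrrCharacter G ζ)
    (hfaith : ∀ g : G, ζ g = ζ 1 → g = 1) (hdeg : charDegree ζ = p - 2) :
    ∃ (K : Subgroup G) (z x : G), Sit P K z x := by
  classical
  obtain ⟨K, h, hc, hi⟩ := local_structure P hP h5 hnn ζ hζ hfaith hdeg
  obtain ⟨z, hzP, hz1, hz⟩ := exists_gen h
  have hpodd : Odd p := hp.out.odd_of_ne_two (by omega)
  have hodd : Odd (Nat.card (LL (P : Subgroup G) K)) := by
    rw [← Nat.not_even_iff_odd, even_iff_two_dvd]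
    intro h2
    obtain ⟨l, hl⟩ := exists_prime_orderOf_dvd_card' 2 h2
    have hζ1 : ζ 1 = ((p - 2 : ℕ) : ℂ) := by rw [irr_one_eq_charDegree hζ, hdeg]
    obtain ⟨w, hw, hw'⟩ := Cfsg.Agent.Classification.QDW.CentralEnd.exists_root hζ
      (hc l) (by rw [hperf]; exact Subgroup.mem_top _) hζ1
    have h3 : w ^ 2 = 1 := by
      have h4 := hw' (1 * ((l : K) : G))
      rw [hw' 1, mul_assoc] at h4
      have h5 : ((l : K) : G) * ((l : K) : G) = 1 := by
        have h6 : l * l = 1 := by rw [← pow_two, ← hl, pow_orderOf_eq_one]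
        have h7 := congrArg (fun a : LL (P : Subgroup G) K => ((a : K) : G)) h6
        exact h7
      rw [h5, one_mul] at h4
      have h6 : ζ 1 ≠ 0 := by
        rw [hζ1]
        have : p - 2 ≠ 0 := by omega
        exact_mod_cast this
      apply mul_right_cancel₀ h6
      rw [pow_two, mul_assoc, ← h4, one_mul]
    have h4 : w = 1 := by
      obtain ⟨r, hr⟩ := hpodd
      have h6 : p - 2 = 2 * (r - 1) + 1 := by omega
      rw [h6, pow_add, pow_mul, h3, one_pow, one_mul, pow_one] at hw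
      exact hw
    have h5 := hfaith ((l : K) : G) (by
      have := hw' 1
      rw [h4, one_mul, one_mul] at this
      exact this)
    have h6 : l = 1 := Subtype.ext (Subtype.ext h5)
    rw [h6, orderOf_one] at hl
    omega
  -- the involution
  obtain ⟨k, hk⟩ : ∃ k : K, k ∉ LL (P : Subgroup G) K := by
    by_contra hcon
    push Not at hcon
    have : LL (P : Subgroup G) K = ⊤ := by
      rw [eq_top_iff]
      exact fun k _ => hcon k
    rw [this, Subgroup.index_top] at hi
    omega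
  have hkk : k * k ∈ LL (P : Subgroup G) K := Subgroup.mul_self_mem_of_index_two hi k
  set m := Nat.card (LL (P : Subgroup G) K) with hm
  have hpow : ∀ r : ℕ, k ^ (2 * r + 1) ∉ LL (P : Subgroup G) K := by
    intro r hr
    apply hk
    have h1 : k ^ (2 * r) ∈ LL (P : Subgroup G) K := by
      rw [pow_mul, pow_two]
      exact Subgroup.pow_mem _ hkk r
    rw [pow_succ] at hr
    exact (Subgroup.mul_mem_cancel_left _ h1).1 hr
  have hx2 : k ^ m * k ^ m = 1 := by
    have h1 : (k * k) ^ m = k ^ m * k ^ m := (Commute.refl k).mul_pow m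
    rw [← h1]
    have h2 : (⟨k * k, hkk⟩ : LL (P : Subgroup G) K) ^ m = 1 := by
      rw [hm]; exact pow_card_eq_one'
    exact congrArg Subtype.val h2
  have hxL : k ^ m ∉ LL (P : Subgroup G) K := by
    obtain ⟨r, hr⟩ := hodd
    rw [hr]
    exact hpow r
  obtain ⟨ψ, hψ⟩ := exists_hom h hz hzP
  have hψx : ((ψ (k ^ m) : (ZMod p)ˣ) : ZMod p) = -1 := by
    have h1 : ψ (k ^ m) * ψ (k ^ m) = 1 := by rw [← map_mul, hx2, map_one]
    have h2 : ψ (k ^ m) ≠ 1 := fun h3 => hxL ((mem_ker h hz hzP hψ _).1 h3)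
    have h3 : ((ψ (k ^ m) : (ZMod p)ˣ) : ZMod p) * ((ψ (k ^ m) : (ZMod p)ˣ) : ZMod p) = 1 := by
      rw [← Units.val_mul, h1, Units.val_one]
    rcases mul_self_eq_one_iff.1 h3 with h4 | h4
    · exact absurd (Units.ext h4) h2
    · exact h4
  refine ⟨K, z, ((k ^ m : K) : G), h, hc, hi, hodd, hz, hzP, (k ^ m : K).2, hxL, ?_, ?_, h5⟩
  · exact congrArg Subtype.val hx2
  · intro i
    rw [hψ, hψx, neg_one_mul]

namespace Sit

variable {P : Sylow p G} {z x : G} (S : Sit P K z x)

include S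

theorem two_ne : (2 : ZMod p) ≠ 0 := by
  have h1 : ((2 : ℕ) : ZMod p) ≠ 0 := by
    rw [Ne, ZMod.natCast_eq_zero_iff]
    intro h2
    have := Nat.le_of_dvd (by norm_num) h2
    have := S.gt
    omega
  exact_mod_cast h1

theorem x_inv : x⁻¹ = x := inv_eq_of_mul_eq_one_left S.xx

theorem x_mul (m : ZMod p) : x * u z m = u z (-m) * x := by
  rw [← S.inv m, mul_assoc, mul_assoc, inv_mul_cancel, mul_one]

theorem hu1 {m : ZMod p} (hm : m ≠ 0) : u z m ≠ 1 := fun h => hm ((u_eq_one_iff S.ord).1 h)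

theorem huP (m : ZMod p) : u z m ∈ (P : Subgroup G) := u_mem_P S.loc S.ord S.mem m

theorem u_inv (m : ZMod p) : (u z m)⁻¹ = u z (-m) := by
  apply inv_eq_of_mul_eq_one_left
  rw [← u_add S.ord, neg_add_cancel, u_zero]

theorem isConj_mul (i : ZMod p) : IsConj x (u z i * x) := by
  rw [isConj_iff]
  refine ⟨u z (i * 2⁻¹), ?_⟩
  rw [S.u_inv, mul_assoc, S.x_mul, ← mul_assoc, ← u_add S.ord, neg_neg, ← mul_two, mul_assoc,
    inv_mul_cancel₀ S.two_ne, mul_one]

theorem exists_u {y : G} (hy : y ∈ (P : Subgroup G)) : ∃ i : ZMod p, u z i = y := by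
  have h1 : y ∈ Subgroup.zpowers z := by
    rw [Cfsg.Agent.H593.D1Block.zpowers_eq S.loc S.ord S.mem]; exact hy
  obtain ⟨i, hi⟩ := exists_u_of_mem S.ord h1
  exact ⟨i, hi⟩

theorem sq_eq_one_of_isConj {q : G} (hq : IsConj x q) : q * q = 1 := by
  obtain ⟨c, hc⟩ := isConj_iff.1 hq
  rw [← hc]
  have h1 : c * x * c⁻¹ * (c * x * c⁻¹) = c * (x * x) * c⁻¹ := by group
  rw [h1, S.xx, mul_one, mul_inv_cancel]

theorem mul_x_mem {k : G} (hk : k ∈ K) (hkL : (⟨k, hk⟩ : K) ∉ LL (P : Subgroup G) K) :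
    (⟨k, hk⟩ : K) * ⟨x, S.xK⟩ ∈ LL (P : Subgroup G) K :=
  (Subgroup.mul_mem_iff_of_index_two S.idx).2 (iff_of_false hkL S.xL)

theorem eq_one_of_sq {l : LL (P : Subgroup G) K} (hl : l * l = 1) : l = 1 := by
  have h1 : orderOf l ∣ 2 := orderOf_dvd_of_pow_eq_one (by rw [pow_two]; exact hl)
  have h2 : orderOf l ∣ Nat.card (LL (P : Subgroup G) K) := orderOf_dvd_natCard l
  rcases (Nat.dvd_prime Nat.prime_two).1 h1 with h3 | h3
  · exact orderOf_eq_one_iff.1 h3
  · rw [h3] at h2
    exact absurd (even_iff_two_dvd.2 h2) (Nat.not_even_iff_odd.2 S.odd)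

/-- An involution inverting a nontrivial element of `P`. -/
theorem eq_of_inv {q : G} (hq : q * q = 1) {m : ZMod p} (hm : m ≠ 0)
    (hinv : q * u z m * q⁻¹ = u z (-m)) : ∃ i : ZMod p, q = u z i * x := by
  have hq' : q⁻¹ = q := inv_eq_of_mul_eq_one_left hq
  have hPm : Subgroup.zpowers (u z m) = (P : Subgroup G) := by
    rw [zpowers_u S.ord hm, Cfsg.Agent.H593.D1Block.zpowers_eq S.loc S.ord S.mem]
  have h1 : ∀ y ∈ (P : Subgroup G), q * y * q⁻¹ ∈ (P : Subgroup G) := by
    intro y hy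
    rw [← hPm] at hy
    obtain ⟨j, rfl⟩ := Subgroup.mem_zpowers_iff.1 hy
    have h2 : q * u z m ^ j * q⁻¹ = (q * u z m * q⁻¹) ^ j := (conj_zpow).symm
    rw [h2, hinv]
    exact zpow_mem (S.huP _) j
  have hN : q ∈ Subgroup.normalizer ((P : Subgroup G) : Set G) := by
    rw [Subgroup.mem_normalizer_iff]
    intro y
    refine ⟨h1 y, fun hy => ?_⟩
    have h2 := h1 _ hy
    have h3 : q * (q * y * q⁻¹) * q⁻¹ = y := by
      rw [hq']
      calc q * (q * y * q) * q = (q * q) * y * (q * q) := by group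
        _ = y := by rw [hq, one_mul, mul_one]
    rwa [h3] at h2
  obtain ⟨k, hk, y, hy, hky⟩ := S.loc.mul q hN
  obtain ⟨j, rfl⟩ := S.exists_u hy
  have hkL : (⟨k, hk⟩ : K) ∉ LL (P : Subgroup G) K := by
    intro h2
    have h3 : k * u z m * k⁻¹ = u z m := by
      have := (S.loc.comm (S.huP m) (mem_LL.1 h2)).eq
      rw [← this, mul_assoc, mul_inv_cancel, mul_one]
    rw [hky] at hinv
    have h4 : k * u z j * u z m * (k * u z j)⁻¹ = k * (u z j * u z m * (u z j)⁻¹) * k⁻¹ := by
      group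
    have h5 : u z j * u z m * (u z j)⁻¹ = u z m := by
      rw [← u_add S.ord, add_comm, u_add S.ord, mul_assoc, mul_inv_cancel, mul_one]
    rw [h4, h5, h3] at hinv
    have h6 := u_injective S.ord hinv
    have h7 : (2 : ZMod p) * m = 0 := by
      rw [two_mul]
      nth_rewrite 1 [h6]
      ring
    rcases mul_eq_zero.1 h7 with h8 | h8
    · exact S.two_ne h8
    · exact hm h8
  have hl := S.mul_x_mem hk hkL
  have hcen := Subgroup.mem_center_iff.1 (S.cen ⟨_, hl⟩)
  have hkl : k = k * x * x := by rw [mul_assoc, S.xx, mul_one]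
  have hl2 : (⟨_, hl⟩ : LL (P : Subgroup G) K) * ⟨_, hl⟩ = 1 := by
    apply Subtype.ext
    apply Subtype.ext
    show k * x * (k * x) = 1
    have h2 : ∀ g : G, g * (k * x) = k * x * g := hcen
    have h3 : q * q = (k * x) * (k * x) := by
      rw [hky]
      calc k * u z j * (k * u z j) = k * x * (x * u z j) * (k * x * (x * u z j)) := by
            rw [← mul_assoc (k * x) x, mul_assoc k x x, S.xx, mul_one]
        _ = k * x * ((x * u z j) * (k * x)) * (x * u z j) := by group
        _ = k * x * (k * x) * (x * u z j * (x * u z j)) := by rw [h2]; group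
        _ = k * x * (k * x) := by
            have h4 : x * u z j * (x * u z j) = 1 := by
              rw [S.x_mul j]
              have h5 : u z (-j) * x * (u z (-j) * x) = u z (-j) * (x * u z (-j)) * x := by group
              rw [h5, S.x_mul (-j), neg_neg, ← mul_assoc, ← u_add S.ord, neg_add_cancel, u_zero,
                one_mul, S.xx]
            rw [h4, mul_one]
    rw [← h3, hq]
  have hl1 := S.eq_one_of_sq hl2
  have hkx : k * x = 1 := congrArg (fun a : LL (P : Subgroup G) K => ((a : K) : G)) hl1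
  have hk' : k = x := by rw [hkl, hkx, one_mul]
  refine ⟨-j, ?_⟩
  rw [hky, hk', S.x_mul]

theorem inv_of_mul {q r : G} (hq : q * q = 1) (hr : r * r = 1) {y : G} (hy : q * r = y) :
    q * y * q⁻¹ = y⁻¹ := by
  have hq' : q⁻¹ = q := inv_eq_of_mul_eq_one_left hq
  have hr' : r⁻¹ = r := inv_eq_of_mul_eq_one_left hr
  rw [← hy, mul_inv_rev, hq', hr', ← mul_assoc q q r, hq, one_mul]

theorem count_one {m : ZMod p} (hm : m ≠ 0) :
    Nat.card {q : G × G // IsConj x q.1 ∧ IsConj x q.2 ∧ q.1 * q.2 = u z m} = p := by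
  have hconj : ∀ i : ZMod p, IsConj x (u z i * x) := S.isConj_mul
  let f : ZMod p → {q : G × G // IsConj x q.1 ∧ IsConj x q.2 ∧ q.1 * q.2 = u z m} := fun i =>
    ⟨(u z i * x, u z (i - m) * x), hconj i, hconj _, by
      show u z i * x * (u z (i - m) * x) = u z m
      have h1 : u z i * x * (u z (i - m) * x) = u z i * (x * u z (i - m)) * x := by group
      rw [h1, S.x_mul, ← mul_assoc, ← u_add S.ord, mul_assoc, S.xx, mul_one]
      congr 1
      ring⟩
  have hf : Function.Bijective f := by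
    constructor
    · intro i j hij
      have h1 : u z i * x = u z j * x := congrArg (fun q => (q.1).1) hij
      exact u_injective S.ord (mul_right_cancel h1)
    · rintro ⟨⟨q, r⟩, hq, hr, hqr⟩
      have hq2 := S.sq_eq_one_of_isConj hq
      have hr2 := S.sq_eq_one_of_isConj hr
      change q * q = 1 at hq2
      change r * r = 1 at hr2
      change q * r = u z m at hqr
      have h1 := S.inv_of_mul hq2 hr2 hqr
      rw [S.u_inv] at h1
      obtain ⟨i, hi⟩ := S.eq_of_inv hq2 hm h1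
      refine ⟨i, Subtype.ext (Prod.ext hi.symm ?_)⟩
      show u z (i - m) * x = r
      have h2 : r = q⁻¹ * u z m := by rw [← hqr]; group
      have h3 : q⁻¹ = q := inv_eq_of_mul_eq_one_left hq2
      rw [h2, h3, hi, mul_assoc, S.x_mul, ← mul_assoc, ← u_add S.ord, sub_eq_add_neg]
  rw [← Nat.card_congr (Equiv.ofBijective f hf), Nat.card_eq_fintype_card, ZMod.card]

theorem count_ne {m : ZMod p} (hm : m ≠ 0) {l : LL (P : Subgroup G) K} (hl : l ≠ 1) :
    Nat.card {q : G × G // IsConj x q.1 ∧ IsConj x q.2 ∧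
      q.1 * q.2 = u z m * ((l : K) : G)} = 0 := by
  rw [Nat.card_eq_zero]
  left
  constructor
  rintro ⟨⟨q, r⟩, hq, hr, hqr⟩
  have hq2 := S.sq_eq_one_of_isConj hq
  have hr2 := S.sq_eq_one_of_isConj hr
  change q * q = 1 at hq2
  change r * r = 1 at hr2
  change q * r = _ at hqr
  have h1 := S.inv_of_mul hq2 hr2 hqr
  have hcen : ∀ g : G, g * ((l : K) : G) = ((l : K) : G) * g := Subgroup.mem_center_iff.1 (S.cen l)
  have h2 : (q * u z m * q⁻¹) * (((l : K) : G) * ((l : K) : G)) = u z (-m) := by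
    have h3 : q * (u z m * ((l : K) : G)) * q⁻¹ = (q * u z m * q⁻¹) * ((l : K) : G) := by
      calc q * (u z m * ((l : K) : G)) * q⁻¹ = (q * u z m) * (((l : K) : G) * q⁻¹) := by group
        _ = (q * u z m) * (q⁻¹ * ((l : K) : G)) := by rw [← hcen]
        _ = _ := by group
    rw [h3, mul_inv_rev, S.u_inv] at h1
    calc q * u z m * q⁻¹ * (((l : K) : G) * ((l : K) : G)) =
        (q * u z m * q⁻¹ * ((l : K) : G)) * ((l : K) : G) := by group
      _ = ((l : K) : G)⁻¹ * (u z (-m) * ((l : K) : G)) := by rw [h1]; group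
      _ = u z (-m) := by rw [hcen, ← mul_assoc, inv_mul_cancel, one_mul]
  have hup : ∀ i : ZMod p, (u z i) ^ p = 1 := by
    intro i
    rw [u_eq, ← pow_mul, mul_comm, pow_mul]
    have : z ^ p = 1 := by rw [← S.ord, pow_orderOf_eq_one]
    rw [this, one_pow]
  have h4 : (((l : K) : G) * ((l : K) : G)) ^ p = 1 := by
    have hc2 : Commute (q * u z m * q⁻¹) (((l : K) : G) * ((l : K) : G)) := by
      apply Commute.mul_right
      · exact hcen _
      · exact hcen _
    have h5 : (q * u z m * q⁻¹ * (((l : K) : G) * ((l : K) : G))) ^ p = (u z (-m)) ^ p := by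
      rw [h2]
    rw [hc2.mul_pow, hup, conj_pow, hup, mul_one, mul_inv_cancel, one_mul] at h5
    exact h5
  have h5 : l ^ (2 * p) = 1 := by
    apply Subtype.ext
    apply Subtype.ext
    rw [pow_mul, pow_two]
    exact h4
  have h6 : orderOf l ∣ 2 * p := orderOf_dvd_of_pow_eq_one h5
  have h7 : orderOf l ∣ Nat.card (LL (P : Subgroup G) K) := orderOf_dvd_natCard l
  have h8 : (Nat.card (LL (P : Subgroup G) K)).Coprime (2 * p) := by
    apply Nat.Coprime.mul_right
    · exact (Nat.coprime_two_right).2 S.odd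
    · rw [Nat.coprime_comm, hp.out.coprime_iff_not_dvd]
      intro h9
      exact S.loc.cop (h9.trans (Subgroup.card_subgroup_dvd_card _))
  exact hl (orderOf_eq_one_iff.1 (Nat.eq_one_of_dvd_coprimes h8 h7 h6))

/-- The class algebra sum over the characters above `θ`. -/
theorem weight [Fintype (LL (P : Subgroup G) K)] [Fintype (IrrCharacter G)]
    (θ : LL (P : Subgroup G) K → ℂ) (hθ : θ 1 = 1) {m : ZMod p} (hm : m ≠ 0) :
    ∑ χ : IrrCharacter G, ((χ : G → ℂ) x * (χ : G → ℂ) x / (χ : G → ℂ) 1) *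
      conj (DD θ (χ : G → ℂ) (u z m)) =
    (Nat.card (Subgroup.centralizer ({x} : Set G)) : ℂ) ^ 2 * p /
      ((Nat.card G : ℂ) * Nat.card (LL (P : Subgroup G) K)) := by
  classical
  have hG : (Nat.card G : ℂ) ≠ 0 := by exact_mod_cast Nat.card_pos.ne'
  have hL : (Nat.card (LL (P : Subgroup G) K) : ℂ) ≠ 0 := by exact_mod_cast Nat.card_pos.ne'
  have h1 : ∀ χ : IrrCharacter G, ((χ : G → ℂ) x * (χ : G → ℂ) x / (χ : G → ℂ) 1) *
      conj (DD θ (χ : G → ℂ) (u z m)) = (Nat.card (LL (P : Subgroup G) K) : ℂ)⁻¹ *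
        ∑ l : LL (P : Subgroup G) K, θ l * ((χ : G → ℂ) x * (χ : G → ℂ) x *
          conj ((χ : G → ℂ) (u z m * ((l : K) : G))) / (χ : G → ℂ) 1) := by
    intro χ
    rw [DD_def, map_mul, map_sum, map_inv₀, map_natCast, Finset.mul_sum, Finset.mul_sum,
      Finset.mul_sum]
    refine Finset.sum_congr rfl fun l _ => ?_
    rw [map_mul, Complex.conj_conj]
    ring
  rw [Finset.sum_congr rfl fun χ _ => h1 χ, ← Finset.mul_sum, Finset.sum_comm]
  have h2 : ∀ l : LL (P : Subgroup G) K, ∑ χ : IrrCharacter G, θ l * ((χ : G → ℂ) x *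
      (χ : G → ℂ) x * conj ((χ : G → ℂ) (u z m * ((l : K) : G))) / (χ : G → ℂ) 1) =
      if l = 1 then (Nat.card (Subgroup.centralizer ({x} : Set G)) : ℂ) ^ 2 * p / Nat.card G
      else 0 := by
    intro l
    have h3 := Cfsg.Agent.Characters.ClassMul.card_conj_mul_conj x x (u z m * ((l : K) : G))
    rw [Cfsg.Agent.Characters.ClassMul.card_conj_mul_conj_eq] at h3
    rw [← Finset.mul_sum]
    have h4 : ∑ χ : IrrCharacter G, (χ : G → ℂ) x *
      (χ : G → ℂ) x * conj ((χ : G → ℂ) (u z m * ((l : K) : G))) / (χ : G → ℂ) 1 =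
        (Nat.card (Subgroup.centralizer ({x} : Set G)) : ℂ) ^ 2 *
          Nat.card {q : G × G // IsConj x q.1 ∧ IsConj x q.2 ∧
            q.1 * q.2 = u z m * ((l : K) : G)} / Nat.card G := by
      rw [eq_div_iff hG, mul_comm, ← h3]
      push_cast
      ring
    rw [h4]
    split_ifs with hl
    · subst hl
      rw [hθ, one_mul]
      have h5 : u z m * ((((1 : LL (P : Subgroup G) K) : K)) : G) = u z m := by
        simp
      rw [h5, S.count_one hm]
    · rw [S.count_ne hm hl, Nat.cast_zero, mul_zero, zero_div, mul_zero]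
  rw [Finset.sum_congr rfl fun l _ => h2 l, Finset.sum_ite_eq' Finset.univ (1 : LL (P : Subgroup G) K),
    if_pos (Finset.mem_univ _)]
  field_simp

/-- The homomorphism from the dihedral group. -/
def dih : DihedralGroup p →* G where
  toFun d := match d with
    | DihedralGroup.r i => u z i
    | DihedralGroup.sr i => x * u z i
  map_one' := by
    rw [DihedralGroup.one_def]
    exact u_zero
  map_mul' := by
    rintro (i | i) (j | j)
    · rw [DihedralGroup.r_mul_r]
      exact u_add S.ord i j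
    · rw [DihedralGroup.r_mul_sr]
      show x * u z (j - i) = u z i * (x * u z j)
      rw [sub_eq_add_neg, add_comm, u_add S.ord, ← mul_assoc, S.x_mul, neg_neg, mul_assoc]
    · rw [DihedralGroup.sr_mul_r]
      show x * u z (i + j) = x * u z i * u z j
      rw [u_add S.ord, mul_assoc]
    · rw [DihedralGroup.sr_mul_sr]
      show u z (j - i) = x * u z i * (x * u z j)
      have h1 : x * u z i * (x * u z j) = (x * u z i) * x * u z j := by group
      rw [h1, S.x_mul, mul_assoc (u z (-i)) x x, S.xx, mul_one, ← u_add S.ord]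
      congr 1
      ring

theorem isConj_mul' (i : ZMod p) : IsConj x (x * u z i) := by
  rw [S.x_mul]
  exact S.isConj_mul _

/-- **The dihedral bound.** -/
theorem bound {χ : G → ℂ} (hχ : IsCharacter G χ) :
    ∃ a b : ℕ, ∑ m : ZMod p, χ (u z m) = p * (a + b) ∧ χ x = (a : ℂ) - b := by
  classical
  have hp0 : (p : ℂ) ≠ 0 := Nat.cast_ne_zero.2 hp.out.ne_zero
  have hcl : ∀ i : ZMod p, χ (x * u z i) = χ x := by
    intro i
    obtain ⟨c, hc⟩ := isConj_iff.1 (S.isConj_mul' i)
    rw [← hc]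
    obtain ⟨n, ρ, rfl⟩ := hχ
    exact Representation.char_conj ρ _ _
  have hsplit : ∀ F : DihedralGroup p → ℂ, ∑ d, F d =
      ∑ i : ZMod p, F (DihedralGroup.r i) + ∑ i : ZMod p, F (DihedralGroup.sr i) := by
    intro F
    rw [← Equiv.sum_comp (DihedralGroup.equivSum (n := p)).symm F, Fintype.sum_sum_type]
    rfl
  let sgn : DihedralGroup p →* ℂˣ :=
    { toFun := fun d => match d with
        | DihedralGroup.r _ => 1
        | DihedralGroup.sr _ => -1
      map_one' := rfl
      map_mul' := by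
        rintro (i | i) (j | j)
        · rw [DihedralGroup.r_mul_r]; exact (one_mul _).symm
        · rw [DihedralGroup.r_mul_sr]; exact (one_mul _).symm
        · rw [DihedralGroup.sr_mul_r]; exact (mul_one _).symm
        · rw [DihedralGroup.sr_mul_sr]; simp }
  have hres : IsCharacter (DihedralGroup p) (χ ∘ S.dih) :=
    Cfsg.Agent.Characters.Core.isCharacter_comp S.dih hχ
  obtain ⟨a, ha⟩ := Cfsg.Agent.Characters.Core.classInner_isNat hres
    (Cfsg.Agent.Characters.Linear.isCharacter_hom (1 : DihedralGroup p →* ℂˣ))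
  obtain ⟨b, hb⟩ := Cfsg.Agent.Characters.Core.classInner_isNat hres
    (Cfsg.Agent.Characters.Linear.isCharacter_hom sgn)
  have hcard : (Nat.card (DihedralGroup p) : ℂ) = 2 * p := by
    rw [DihedralGroup.nat_card]; push_cast; rfl
  rw [Cfsg.Agent.Characters.Core.classInner_def, hsplit, hcard] at ha hb
  have h1 : ∑ i : ZMod p, (χ ∘ S.dih) (DihedralGroup.r i) *
      conj (((1 : DihedralGroup p →* ℂˣ) (DihedralGroup.r i) : ℂˣ) : ℂ) =
      ∑ m : ZMod p, χ (u z m) := by
    refine Finset.sum_congr rfl fun i _ => ?_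
    show χ (u z i) * conj ((1 : ℂˣ) : ℂ) = _
    simp
  have h2 : ∑ i : ZMod p, (χ ∘ S.dih) (DihedralGroup.sr i) *
      conj (((1 : DihedralGroup p →* ℂˣ) (DihedralGroup.sr i) : ℂˣ) : ℂ) = p * χ x := by
    have h3 : ∀ i : ZMod p, (χ ∘ S.dih) (DihedralGroup.sr i) *
      conj (((1 : DihedralGroup p →* ℂˣ) (DihedralGroup.sr i) : ℂˣ) : ℂ) = χ x := by
      intro i
      show χ (x * u z i) * conj ((1 : ℂˣ) : ℂ) = _
      rw [hcl]
      simp
    rw [Finset.sum_congr rfl fun i _ => h3 i, Finset.sum_const, Finset.card_univ, ZMod.card,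
      nsmul_eq_mul]
  have h3 : ∑ i : ZMod p, (χ ∘ S.dih) (DihedralGroup.r i) *
      conj ((sgn (DihedralGroup.r i) : ℂˣ) : ℂ) = ∑ m : ZMod p, χ (u z m) := by
    refine Finset.sum_congr rfl fun i _ => ?_
    show χ (u z i) * conj ((1 : ℂˣ) : ℂ) = _
    simp
  have h4 : ∑ i : ZMod p, (χ ∘ S.dih) (DihedralGroup.sr i) *
      conj ((sgn (DihedralGroup.sr i) : ℂˣ) : ℂ) = -(p * χ x) := by
    have h3 : ∀ i : ZMod p, (χ ∘ S.dih) (DihedralGroup.sr i) *
      conj ((sgn (DihedralGroup.sr i) : ℂˣ) : ℂ) = -χ x := by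
      intro i
      show χ (x * u z i) * conj ((-1 : ℂˣ) : ℂ) = _
      rw [hcl]
      simp
    rw [Finset.sum_congr rfl fun i _ => h3 i, Finset.sum_const, Finset.card_univ, ZMod.card,
      nsmul_eq_mul]
    ring
  rw [h1, h2] at ha
  rw [h3, h4] at hb
  refine ⟨a, b, ?_, ?_⟩
  · rw [← ha, ← hb]
    field_simp
    ring
  · rw [← ha, ← hb]
    field_simp
    ring

end Sit

end Cfsg.Agent.H656.PM2Count
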