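import Mathlib
import Cfsg.Prelude.Def_Blocks
import Cfsg.Agent.CharactersDeep.Extraspecial
import Cfsg.Agent.H656.PM2Block
import Cfsg.Agent.H656.PM2Count

/-!
# The two equations

The class algebra constant of the involution `x` at the elements of `P`, computed in the block of the
character `ζ` of degree `p - 2` and in the principal block.
-/

set_option autoImplicit false
set_option linter.unusedSectionVars false
set_option linter.unusedVariables false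

namespace Cfsg.Agent.H656.PM2Eq

open Cfsg ZMod
open scoped ComplexConjugate
open Cfsg.Agent.Blocks.Basic
open Cfsg.Agent.Blocks.CyclicGroup
open Cfsg.Agent.H593.D1Local
open Cfsg.Agent.H593.D1Sec
open Cfsg.Agent.H656.PM2Centre
open Cfsg.Agent.H656.PM2Count
open Cfsg.Agent.H656.PM2Block
open Cfsg.Agent.Characters.Core (isIrr_isCharacter finite_irr isIrr_apply_one)

variable {G : Type*} [Group G] [Fintype G] {p : ℕ} [hp : Fact p.Prime] {K : Subgroup G}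
  {P : Sylow p G} {z x : G} (S : Sit P K z x)

include S

theorem sum_units (χ : G → ℂ) : ∑ m : (ZMod p)ˣ, χ (u z (m : ZMod p)) =
    ∑ m : ZMod p, χ (u z m) - χ 1 := by
  have h1 := Cfsg.Agent.H593.D1Abs.sum_units_eq (fun m : ZMod p => χ (u z m))
  rw [u_zero] at h1
  exact h1

theorem sum_const {χ : G → ℂ} {a : ℂ} (h : ∀ m : ZMod p, m ≠ 0 → χ (u z m) = a) :
    ∑ m : ZMod p, χ (u z m) = χ 1 + (p - 1) * a := by
  have h1 := sum_units S χ
  rw [Finset.sum_congr rfl fun (m : (ZMod p)ˣ) _ => h (m : ZMod p) (Units.ne_zero m),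
    Finset.sum_const, Finset.card_univ, ZMod.card_units, nsmul_eq_mul,
    Nat.cast_sub hp.out.one_lt.le] at h1
  push_cast at h1
  linear_combination -h1

theorem x_regular : ¬ p ∣ orderOf x := by
  have h1 : orderOf x ∣ 2 := orderOf_dvd_of_pow_eq_one (by rw [pow_two]; exact S.xx)
  intro h2
  have h3 := Nat.le_of_dvd (by norm_num) (h2.trans h1)
  have := S.gt
  omega

theorem one_regular : ¬ p ∣ orderOf (1 : G) := by
  rw [orderOf_one]
  exact hp.out.not_dvd_one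

omit S in
theorem ne_two_three (h : 5 < p) : (p : ℂ) - 2 ≠ 0 := by
  have h1 : ((p - 2 : ℕ) : ℂ) ≠ 0 := by
    have : p - 2 ≠ 0 := by omega
    exact_mod_cast this
  rwa [Nat.cast_sub (by omega)] at h1

/-- **The block of `ζ`.** -/
theorem zeta_block [Fintype (LL (P : Subgroup G) K)] {ζ : G → ℂ} (hζ : IsIrrCharacter G ζ)
    (hdeg : charDegree ζ = p - 2) :
    ∃ (θ : IrrCharacter (LL (P : Subgroup G) K)) (χ₁ χ₂ : IrrCharacter G) (k : ℕ) (r δ : ℤ),
      (∀ (g : G) (l : LL (P : Subgroup G) K), ζ (g * ((l : K) : G)) =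
        ζ g * (θ : LL (P : Subgroup G) K → ℂ) l) ∧
      (∀ (g : G) (l : LL (P : Subgroup G) K), (χ₁ : G → ℂ) (g * ((l : K) : G)) =
        (χ₁ : G → ℂ) g * (θ : LL (P : Subgroup G) K → ℂ) l) ∧
      (δ = 1 ∨ δ = -1) ∧ ζ x = δ ∧ (χ₁ : G → ℂ) 1 = k * p + 1 ∧
      (χ₂ : G → ℂ) 1 = (k + 1) * p - 1 ∧ (χ₁ : G → ℂ) x = r ∧ |r + δ| ≤ k ∧
      (∀ m : ZMod p, m ≠ 0 → (χ₂ : G → ℂ) (u z m) = -1) ∧
      (∀ g : G, ¬ p ∣ orderOf g → (χ₂ : G → ℂ) g = (χ₁ : G → ℂ) g + ζ g) ∧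
      (∑ m : (ZMod p)ˣ, ζ (u z (m : ZMod p)) * conj (ζ (u z (m : ZMod p))) = 2 * p - 4) ∧
      ((r : ℂ) ^ 2 / (k * p + 1) - ((r : ℂ) + δ) ^ 2 / ((k + 1) * p - 1) + 1 / (p - 2) =
        (Nat.card (Subgroup.centralizer ({x} : Set G)) : ℂ) ^ 2 * p /
      ((Nat.card G : ℂ) * Nat.card (LL (P : Subgroup G) K))) := by
  classical
  have := finite_irr (G := G)
  have := Fintype.ofFinite (IrrCharacter G)
  have hp5 := S.gt
  have hp0 : (p : ℂ) ≠ 0 := Nat.cast_ne_zero.2 hp.out.ne_zero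
  have hζ1 : ζ 1 = (p : ℂ) - 2 := by
    rw [irr_one_eq_charDegree hζ, hdeg, Nat.cast_sub (by omega)]
    push_cast
    rfl
  -- the central character
  obtain ⟨c, hc, -⟩ := Cfsg.Agent.CharactersDeep.Extraspecial.exists_central_hom hζ
  let j : LL (P : Subgroup G) K →* Subgroup.center G :=
    { toFun := fun l => ⟨((l : K) : G), S.cen l⟩
      map_one' := rfl
      map_mul' := fun _ _ => rfl }
  let θ : IrrCharacter (LL (P : Subgroup G) K) :=
    ⟨fun l => ((c.comp j) l : ℂ), Cfsg.Agent.Characters.Linear.isIrrCharacter_hom (c.comp j)⟩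
  have hθ : ∀ (g : G) (l : LL (P : Subgroup G) K), ζ (g * ((l : K) : G)) =
      ζ g * (θ : LL (P : Subgroup G) K → ℂ) l := fun g l => hc g (j l)
  have hθ1 : (θ : LL (P : Subgroup G) K → ℂ) 1 = 1 := by
    show (((c.comp j) 1 : ℂˣ) : ℂ) = 1
    rw [map_one, Units.val_one]
  obtain ⟨A, B, hAB, hABx⟩ := S.bound (isIrr_isCharacter hζ)
  obtain ⟨m₀, hm₀, hne⟩ : ∃ m : ZMod p, m ≠ 0 ∧ ζ (u z m) ≠ 0 := by
    by_contra hcon
    push Not at hcon
    have h1 := sum_const S (χ := ζ) (a := 0) hcon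
    rw [hAB, hζ1, mul_zero, add_zero] at h1
    have h2 : (p : ℤ) * (A + B) = p - 2 := by exact_mod_cast h1
    have h3 : (p : ℤ) ∣ 2 := ⟨1 - (A + B), by linarith⟩
    have h4 : p ∣ 2 := by exact_mod_cast h3
    have := Nat.le_of_dvd (by norm_num) h4
    omega
  obtain ⟨χ₁, χ₂, a₁, a₂, Ω, hΩ, Ψ, ε, h12, ha₁, ha₂, hε, hcardΩ, hW, hreg, hv₁, hv₂, hsumΨ, hmul,
    hall, hinj, hdisj, hsq⟩ := PM2Block.main P S.loc S.cen S.idx (by omega) S.ord S.mem θ ⟨ζ, hζ⟩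
      (by
        show ¬ p ∣ charDegree ζ
        rw [hdeg]
        intro h1
        have := Nat.le_of_dvd (by omega) h1
        omega) hm₀ (by
        rw [DD_of_mul θ ζ hθ]
        exact hne)
  -- `ζ` is exceptional
  have hζcase := hall ⟨ζ, hζ⟩ ⟨m₀, hm₀, by
    show DD _ ζ _ ≠ 0
    rw [DD_of_mul θ ζ hθ]; exact hne⟩
  have hconst : ∀ a : ℤ, (a = 1 ∨ a = -1) → ¬ ∀ m : ZMod p, m ≠ 0 → ζ (u z m) = a := by
    intro a ha hcon
    have h1 := sum_const S (χ := ζ) (a := a) hcon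
    rw [hAB, hζ1] at h1
    have h2 : (p : ℤ) * (A + B) = (p - 2) + (p - 1) * a := by exact_mod_cast h1
    rcases ha with rfl | rfl
    · have h3 : (p : ℤ) ∣ 3 := ⟨2 - (A + B), by linarith⟩
      have h4 : p ∣ 3 := by exact_mod_cast h3
      have := Nat.le_of_dvd (by norm_num) h4
      omega
    · have h3 : (p : ℤ) ∣ 1 := ⟨-(A + B), by linarith⟩
      have h4 : p ∣ 1 := by exact_mod_cast h3
      have := Nat.le_of_dvd (by norm_num) h4
      omega
  obtain ⟨ω, hω⟩ : ∃ ω, (⟨ζ, hζ⟩ : IrrCharacter G) = Ψ ω := by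
    rcases hζcase with h1 | h1 | h1
    · exfalso
      apply hconst a₁ ha₁
      intro m hm
      have := hv₁ m hm
      rw [← h1] at this
      exact this
    · exfalso
      apply hconst a₂ ha₂
      intro m hm
      have := hv₂ m hm
      rw [← h1] at this
      exact this
    · exact h1
  have hζΨ : ∀ g, (Ψ ω : G → ℂ) g = ζ g := fun g => by rw [← hω]
  have hεω : ε ω = -1 ∧ (A : ℤ) + B = 1 := by
    have h1 := hsumΨ ω
    simp only [hζΨ] at h1
    rw [sum_units S ζ, hAB, hζ1] at h1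
    have h2 : (p : ℤ) * (A + B) - (p - 2) = -2 * ε ω := by exact_mod_cast h1
    rcases hε ω with h | h
    · exfalso
      rw [h] at h2
      have h3 : (p : ℤ) ∣ 4 := ⟨1 - (A + B), by linarith⟩
      have h4 : p ∣ 4 := by exact_mod_cast h3
      have := Nat.le_of_dvd (by norm_num) h4
      omega
    · refine ⟨h, ?_⟩
      rw [h] at h2
      have hpZ : (p : ℤ) ≠ 0 := by exact_mod_cast hp.out.ne_zero
      apply mul_left_cancel₀ hpZ
      linarith
  obtain ⟨hεω, hAB1⟩ := hεω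
  -- the values of the two characters
  obtain ⟨A₁, B₁, hAB₁, hx₁⟩ := S.bound (isIrr_isCharacter χ₁.2)
  obtain ⟨A₂, B₂, hAB₂, hx₂⟩ := S.bound (isIrr_isCharacter χ₂.2)
  rw [sum_const S hv₁] at hAB₁
  rw [sum_const S hv₂] at hAB₂
  obtain ⟨d₁, hd₁, hd₁1⟩ := isIrr_apply_one χ₁.2
  obtain ⟨d₂, hd₂, hd₂1⟩ := isIrr_apply_one χ₂.2
  rw [hd₁1] at hAB₁
  rw [hd₂1] at hAB₂
  have e₁ : (d₁ : ℤ) + (p - 1) * a₁ = p * (A₁ + B₁) := by exact_mod_cast hAB₁
  have e₂ : (d₂ : ℤ) + (p - 1) * a₂ = p * (A₂ + B₂) := by exact_mod_cast hAB₂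
  have hreg' : ∀ g : G, ¬ p ∣ orderOf g →
      a₁ * (χ₁ : G → ℂ) g + a₂ * (χ₂ : G → ℂ) g = -ζ g := by
    intro g hg
    have h1 := hreg g hg ω
    rw [hζΨ, hεω] at h1
    rw [h1]
    push_cast
    ring
  have e₃ : a₁ * (d₁ : ℤ) + a₂ * d₂ = -(p - 2) := by
    have h1 := hreg' 1 (one_regular S)
    rw [hd₁1, hd₂1, hζ1] at h1
    exact_mod_cast h1
  have hpZ : (5 : ℤ) < p := by exact_mod_cast hp5
  have hd₁Z : (0 : ℤ) < d₁ := by exact_mod_cast hd₁
  have hd₂Z : (0 : ℤ) < d₂ := by exact_mod_cast hd₂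
  have hWS := hW (fun χ => (χ : G → ℂ) x * (χ : G → ℂ) x / (χ : G → ℂ) 1) _
    (fun m hm => S.weight (θ : LL (P : Subgroup G) K → ℂ) hθ1 hm) ω
  rw [hεω] at hWS
  have hxreg := hreg' x (x_regular S)
  have hsqζ := hsq ω
  simp only [hζΨ] at hWS hsqζ
  rw [hζ1, hABx] at hWS
  rw [hABx] at hxreg
  have hδ : ((A : ℤ) - B = 1 ∨ (A : ℤ) - B = -1) := by omega
  have hδ2 : ((A : ℂ) - B) * ((A : ℂ) - B) = 1 := by
    have : ((A : ℤ) - B) * ((A : ℤ) - B) = 1 := by rcases hδ with h | h <;> rw [h] <;> norm_num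
    exact_mod_cast this
  have hp2 := ne_two_three hp5
  rcases ha₁ with h1 | h1 <;> rcases ha₂ with h2 | h2
  · exfalso
    rw [h1, h2] at e₃
    linarith
  · -- `a₁ = 1`, `a₂ = -1`
    rw [h1] at e₁ e₃ hWS hxreg
    rw [h2] at e₂ e₃ hWS hxreg
    have hk1 : 1 ≤ A₁ + B₁ := by
      by_contra hcon
      have h3 : A₁ + B₁ = 0 := by omega
      have h4 : (A₁ : ℤ) + B₁ = 0 := by exact_mod_cast h3
      rw [h4] at e₁
      nlinarith
    obtain ⟨k, hk⟩ := Nat.exists_eq_add_of_le hk1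
    have hkZ : (A₁ : ℤ) + B₁ = 1 + k := by exact_mod_cast hk
    have hd₁' : (d₁ : ℤ) = k * p + 1 := by rw [hkZ] at e₁; linarith
    have hd₂' : (d₂ : ℤ) = (k + 1) * p - 1 := by linarith
    have hk₂ : (A₂ : ℤ) + B₂ = k := by
      have hpZ' : (p : ℤ) ≠ 0 := by omega
      apply mul_left_cancel₀ hpZ'
      rw [← e₂, hd₂']
      ring
    have hx₂' : (A₂ : ℤ) - B₂ = (A₁ - B₁) + (A - B) := by
      rw [hx₁, hx₂] at hxreg
      have : (1 : ℤ) * (A₁ - B₁) + -1 * (A₂ - B₂) = -(A - B) := by exact_mod_cast hxreg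
      linarith
    refine ⟨θ, χ₁, χ₂, k, (A₁ : ℤ) - B₁, (A : ℤ) - B, hθ, hmul χ₁ (Or.inl rfl), hδ, ?_, ?_, ?_, ?_,
      ?_, ?_, ?_, hsqζ, ?_⟩
    · rw [hABx]; push_cast; ring
    · rw [hd₁1]; exact_mod_cast hd₁'
    · rw [hd₂1]; exact_mod_cast hd₂'
    · rw [hx₁]; push_cast; ring
    · rw [← hx₂', abs_le]
      constructor <;> linarith [Int.natCast_nonneg A₂, Int.natCast_nonneg B₂]
    · intro m hm
      rw [hv₂ m hm, h2]
      push_cast
      ring
    · intro g hg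
      have h3 := hreg' g hg
      rw [h1, h2] at h3
      push_cast at h3
      linear_combination -h3
    · rw [← hWS, hx₁, hx₂, hd₁1, hd₂1]
      have h3 : (d₁ : ℂ) = k * p + 1 := by exact_mod_cast hd₁'
      have h4 : (d₂ : ℂ) = (k + 1) * p - 1 := by exact_mod_cast hd₂'
      have h5 : (A₂ : ℂ) - B₂ = (A₁ - B₁) + (A - B) := by exact_mod_cast hx₂'
      rw [h3, h4, h5, hδ2]
      push_cast
      ring
  · -- `a₁ = -1`, `a₂ = 1`
    rw [h1] at e₁ e₃ hWS hxreg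
    rw [h2] at e₂ e₃ hWS hxreg
    have hk1 : 1 ≤ A₂ + B₂ := by
      by_contra hcon
      have h3 : A₂ + B₂ = 0 := by omega
      have h4 : (A₂ : ℤ) + B₂ = 0 := by exact_mod_cast h3
      rw [h4] at e₂
      nlinarith
    obtain ⟨k, hk⟩ := Nat.exists_eq_add_of_le hk1
    have hkZ : (A₂ : ℤ) + B₂ = 1 + k := by exact_mod_cast hk
    have hd₁' : (d₂ : ℤ) = k * p + 1 := by rw [hkZ] at e₂; linarith
    have hd₂' : (d₁ : ℤ) = (k + 1) * p - 1 := by linarith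
    have hk₂ : (A₁ : ℤ) + B₁ = k := by
      have hpZ' : (p : ℤ) ≠ 0 := by omega
      apply mul_left_cancel₀ hpZ'
      rw [← e₁, hd₂']
      ring
    have hx₂' : (A₁ : ℤ) - B₁ = (A₂ - B₂) + (A - B) := by
      rw [hx₁, hx₂] at hxreg
      have : (-1 : ℤ) * (A₁ - B₁) + 1 * (A₂ - B₂) = -(A - B) := by exact_mod_cast hxreg
      linarith
    refine ⟨θ, χ₂, χ₁, k, (A₂ : ℤ) - B₂, (A : ℤ) - B, hθ, hmul χ₂ (Or.inr (Or.inl rfl)), hδ, ?_, ?_,
      ?_, ?_, ?_, ?_, ?_, hsqζ, ?_⟩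
    · rw [hABx]; push_cast; ring
    · rw [hd₂1]; exact_mod_cast hd₁'
    · rw [hd₁1]; exact_mod_cast hd₂'
    · rw [hx₂]; push_cast; ring
    · rw [← hx₂', abs_le]
      constructor <;> linarith [Int.natCast_nonneg A₁, Int.natCast_nonneg B₁]
    · intro m hm
      rw [hv₁ m hm, h1]
      push_cast
      ring
    · intro g hg
      have h3 := hreg' g hg
      rw [h1, h2] at h3
      push_cast at h3
      linear_combination -h3
    · rw [← hWS, hx₁, hx₂, hd₁1, hd₂1]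
      have h3 : (d₂ : ℂ) = k * p + 1 := by exact_mod_cast hd₁'
      have h4 : (d₁ : ℂ) = (k + 1) * p - 1 := by exact_mod_cast hd₂'
      have h5 : (A₁ : ℂ) - B₁ = (A₂ - B₂) + (A - B) := by exact_mod_cast hx₂'
      rw [h3, h4, h5, hδ2]
      push_cast
      ring
  · exfalso
    rw [h1] at e₁ e₃
    rw [h2] at e₂ e₃
    have h3 : (0 : ℤ) ≤ p * (A₁ + B₁) := by positivity
    have h4 : (0 : ℤ) ≤ p * (A₂ + B₂) := by positivity
    linarith

/-- **The principal block.** -/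
theorem principal_block [Fintype (LL (P : Subgroup G) K)] (hperf : commutator G = ⊤) :
    ∃ (χ : IrrCharacter G) (a : ℤ) (d A B : ℕ) (Ω : Type) (_ : Fintype Ω) (Ψ : Ω → IrrCharacter G),
      (χ : G → ℂ) ≠ 1 ∧ (a = 1 ∨ a = -1) ∧ 2 * Fintype.card Ω = p - 1 ∧ 1 < d ∧
      (χ : G → ℂ) 1 = d ∧ (χ : G → ℂ) x = (A : ℂ) - B ∧ (d : ℤ) + (p - 1) * a = p * (A + B) ∧
      (∀ m : ZMod p, m ≠ 0 → (χ : G → ℂ) (u z m) = a) ∧
      (∀ (ω : Ω) (g : G), ¬ p ∣ orderOf g → (Ψ ω : G → ℂ) g = a + (χ : G → ℂ) g) ∧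
      (∀ ω, ∑ m : (ZMod p)ˣ, (Ψ ω : G → ℂ) (u z (m : ZMod p)) = -2 * a) ∧
      Function.Injective Ψ ∧ (∀ ω, Ψ ω ≠ χ ∧ (Ψ ω : G → ℂ) ≠ 1) ∧
      (∀ χ' : IrrCharacter G, (∀ (g : G) (l : LL (P : Subgroup G) K),
        (χ' : G → ℂ) (g * ((l : K) : G)) = (χ' : G → ℂ) g) → (χ' : G → ℂ) ≠ 1 → χ' ≠ χ →
        (∀ ω, χ' ≠ Ψ ω) → ∀ m : ZMod p, m ≠ 0 → (χ' : G → ℂ) (u z m) = 0) ∧
      (1 + a * ((A : ℂ) - B) ^ 2 / d - a * (a + ((A : ℂ) - B)) ^ 2 / (d + a) =
        (Nat.card (Subgroup.centralizer ({x} : Set G)) : ℂ) ^ 2 * p /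
      ((Nat.card G : ℂ) * Nat.card (LL (P : Subgroup G) K))) := by
  classical
  have := finite_irr (G := G)
  have := Fintype.ofFinite (IrrCharacter G)
  have hp5 := S.gt
  have hp0 : (p : ℂ) ≠ 0 := Nat.cast_ne_zero.2 hp.out.ne_zero
  let θ : IrrCharacter (LL (P : Subgroup G) K) := ⟨1, Cfsg.Agent.Characters.Core.isIrr_one⟩
  let o : IrrCharacter G := ⟨1, Cfsg.Agent.Characters.Core.isIrr_one⟩
  have hθ1 : (θ : LL (P : Subgroup G) K → ℂ) 1 = 1 := rfl
  have ho : ∀ g, (o : G → ℂ) g = 1 := fun _ => rfl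
  have hne1 : ∀ ψ : IrrCharacter G, (ψ : G → ℂ) ≠ 1 ↔ ψ ≠ o := by
    intro ψ
    exact ⟨fun hψ h' => hψ (by rw [h']), fun hψ h' => hψ (Subtype.ext h')⟩
  have hDDo : ∀ y, DD (θ : LL (P : Subgroup G) K → ℂ) (o : G → ℂ) y = 1 := by
    intro y
    exact DD_of_mul θ (o : G → ℂ) (fun g l => (mul_one (1 : ℂ)).symm) y
  have h10 : (1 : ZMod p) ≠ 0 := one_ne_zero
  obtain ⟨χ₁, χ₂, a₁, a₂, Ω, hΩ, Ψ, ε, h12, ha₁, ha₂, hε, hcardΩ, hW, hreg, hv₁, hv₂, hsumΨ, hmul,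
    hall, hinj, hdisj, hsq⟩ := PM2Block.main P S.loc S.cen S.idx (by omega) S.ord S.mem θ o
      (by
        have h1 : charDegree (o : G → ℂ) = 1 := by
          have h2 := irr_one_eq_charDegree o.2
          rw [ho] at h2
          exact_mod_cast h2.symm
        rw [h1]
        exact hp.out.not_dvd_one) h10 (by rw [hDDo]; exact one_ne_zero)
  have hocase := hall o ⟨1, h10, by rw [hDDo]; exact one_ne_zero⟩
  have hoΨ : ∀ ω, o ≠ Ψ ω := by
    intro ω hω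
    have h1 := hsumΨ ω
    rw [← hω] at h1
    simp only [ho] at h1
    rw [Finset.sum_const, Finset.card_univ, ZMod.card_units, nsmul_eq_mul, mul_one,
      Nat.cast_sub hp.out.one_lt.le] at h1
    have h2 : (p : ℤ) - 1 = -2 * ε ω := by exact_mod_cast h1
    rcases hε ω with h | h <;> rw [h] at h2 <;> omega
  obtain ⟨χ, a, hoχ, ha, hW', hreg', hv, hall', hdisj'⟩ : ∃ (χ : IrrCharacter G) (a : ℤ), χ ≠ o ∧
      (a = 1 ∨ a = -1) ∧
      (∀ (W : IrrCharacter G → ℂ) (T : ℂ), (∀ m : ZMod p, m ≠ 0 →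
        ∑ χ, W χ * conj (DD (θ : LL (P : Subgroup G) K → ℂ) (χ : G → ℂ) (u z m)) = T) →
        ∀ ω, W o + a * W χ - ε ω * W (Ψ ω) = T) ∧
      (∀ g : G, ¬ p ∣ orderOf g → ∀ ω,
        1 + a * (χ : G → ℂ) g = ε ω * (Ψ ω : G → ℂ) g) ∧
      (∀ m : ZMod p, m ≠ 0 → (χ : G → ℂ) (u z m) = a) ∧
      (∀ χ' : IrrCharacter G, (∃ m : ZMod p, m ≠ 0 ∧
        DD (θ : LL (P : Subgroup G) K → ℂ) (χ' : G → ℂ) (u z m) ≠ 0) →
          χ' = o ∨ χ' = χ ∨ ∃ ω, χ' = Ψ ω) ∧ (∀ ω, Ψ ω ≠ χ) := by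
    rcases hocase with h1 | h1 | ⟨ω, h1⟩
    · have ha : a₁ = 1 := by
        have h2 := hv₁ 1 h10
        rw [← h1, ho] at h2
        exact_mod_cast h2.symm
      subst ha
      refine ⟨χ₂, a₂, ?_, ha₂, ?_, ?_, hv₂, ?_, fun ω => (hdisj ω).2⟩
      · rw [h1]; exact h12.symm
      · intro W T hT ω
        have h2 := hW W T hT ω
        rw [← h1] at h2
        rw [← h2]
        push_cast
        ring
      · intro g hg ω
        have h2 := hreg g hg ω
        rw [← h1, ho] at h2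
        rw [← h2]
        push_cast
        ring
      · intro χ' hχ'
        rw [h1]
        exact hall χ' hχ'
    · have ha : a₂ = 1 := by
        have h2 := hv₂ 1 h10
        rw [← h1, ho] at h2
        exact_mod_cast h2.symm
      subst ha
      refine ⟨χ₁, a₁, ?_, ha₁, ?_, ?_, hv₁, ?_, fun ω => (hdisj ω).1⟩
      · rw [h1]; exact h12
      · intro W T hT ω
        have h2 := hW W T hT ω
        rw [← h1] at h2
        rw [← h2]
        push_cast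
        ring
      · intro g hg ω
        have h2 := hreg g hg ω
        rw [← h1, ho] at h2
        rw [← h2]
        push_cast
        ring
      · intro χ' hχ'
        rcases hall χ' hχ' with h2 | h2 | h2
        · exact Or.inr (Or.inl h2)
        · left; rw [h1]; exact h2
        · exact Or.inr (Or.inr h2)
    · exact absurd h1 (hoΨ ω)
  obtain ⟨d, hd, hd1⟩ := isIrr_apply_one χ.2
  obtain ⟨A, B, hAB, hABx⟩ := S.bound (isIrr_isCharacter χ.2)
  rw [sum_const S hv, hd1] at hAB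
  have e₁ : (d : ℤ) + (p - 1) * a = p * (A + B) := by exact_mod_cast hAB
  have hd2 : 1 < d := by
    by_contra hcon
    have h1 : d = 1 := by omega
    apply (hne1 χ).2 hoχ
    obtain ⟨f, hf⟩ := Cfsg.Agent.Characters.Linear.exists_hom_of_isIrrCharacter χ.2
      (by rw [hd1, h1, Nat.cast_one])
    rw [hf]
    funext g
    have h2 : g ∈ commutator G := by rw [hperf]; trivial
    have h3 := Abelianization.commutator_subset_ker f h2
    rw [MonoidHom.mem_ker] at h3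
    rw [h3]
    rfl
  have haa : a * a = 1 := by rcases ha with h | h <;> rw [h] <;> norm_num
  have haC : (a : ℂ) * a = 1 := by exact_mod_cast haa
  have hεa : ∀ ω, ε ω = a := by
    intro ω
    have h1 := hreg' 1 (one_regular S) ω
    obtain ⟨e, he, he1⟩ := isIrr_apply_one (Ψ ω).2
    rw [hd1, he1] at h1
    have h2 : 1 + a * (d : ℤ) = ε ω * e := by exact_mod_cast h1
    have hdZ : (1 : ℤ) < d := by exact_mod_cast hd2
    have heZ : (0 : ℤ) < e := by exact_mod_cast he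
    rcases ha with h | h <;> rcases hε ω with h' | h' <;> rw [h, h'] at h2 ⊢ <;> exfalso <;> linarith
  have hΨ : ∀ (ω : Ω) (g : G), ¬ p ∣ orderOf g → (Ψ ω : G → ℂ) g = a + (χ : G → ℂ) g := by
    intro ω g hg
    have h1 := hreg' g hg ω
    rw [hεa] at h1
    linear_combination (-(Ψ ω : G → ℂ) g + (χ : G → ℂ) g) * haC - (a : ℂ) * h1
  have hΩne : Nonempty Ω := by
    rw [← Fintype.card_pos_iff]
    omega
  refine ⟨χ, a, d, A, B, Ω, hΩ, Ψ, (hne1 χ).2 hoχ, ha, hcardΩ, hd2, hd1, hABx, e₁, hv, hΨ, ?_, hinj,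
    fun ω => ⟨hdisj' ω, (hne1 _).2 (hoΨ ω).symm⟩, ?_, ?_⟩
  · intro ω
    rw [hsumΨ, hεa]
  · intro χ' hχ' h1 hχχ hΨχ m hm
    by_contra hcon
    have h2 : ∀ (g : G) (l : LL (P : Subgroup G) K), (χ' : G → ℂ) (g * ((l : K) : G)) =
        (χ' : G → ℂ) g * (θ : LL (P : Subgroup G) K → ℂ) l := by
      intro g l
      rw [hχ' g l]
      exact (mul_one _).symm
    rcases hall' χ' ⟨m, hm, by rw [DD_of_mul θ _ h2]; exact hcon⟩ with h3 | h3 | ⟨ω, h3⟩
    · exact (hne1 χ').1 h1 h3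
    · exact hχχ h3
    · exact hΨχ ω h3
  · obtain ⟨ω⟩ := hΩne
    have hWS := hW' (fun χ => (χ : G → ℂ) x * (χ : G → ℂ) x / (χ : G → ℂ) 1) _
      (fun m hm => S.weight (θ : LL (P : Subgroup G) K → ℂ) hθ1 hm) ω
    rw [hεa, hΨ ω x (x_regular S), hΨ ω 1 (one_regular S), hd1, hABx, ho, ho] at hWS
    rw [← hWS]
    ring

end Cfsg.Agent.H656.PM2Eq
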