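import Mathlib
import Cfsg.Prelude.Def_Blocks
import Cfsg.Agent.S0165
import Cfsg.Agent.H418.Frob
import Cfsg.Agent.Characters.GaloisBasic
import Cfsg.Agent.Characters.CentralCharacter
import Cfsg.Agent.SporadicA.M11CharSimple
import Cfsg.Agent.H656.DihedralP

/-!
# The order of a simple group with irreducible characters of degrees `p - 1` and `p - 2`

`G` is a simple group with `C_G(P) = P` and `|N_G(P)| = 2 p`, an irreducible character `ρ` of degree
`p - 1` and `(p - 1) / 2` irreducible characters equal to `ρ - 1` on `p`-regular elements. Then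
`|G| = p (p - 1) (p - 2)`.
-/

set_option autoImplicit false
set_option linter.unusedSectionVars false
set_option linter.unusedVariables false

namespace Cfsg.Agent.H656.PM2Order

open Cfsg
open scoped ComplexConjugate
open Cfsg.Agent.Blocks.Basic (irr_one_eq_charDegree)
open Cfsg.Agent.Characters.Core (isIrr_isCharacter finite_irr isIrr_apply_one classInner_irr_self
  classInner_irr_ne classInner_isNat isCharacter_comp isCharacter_one)

variable {G : Type*} [Group G] [Fintype G] {p : ℕ} [hp : Fact p.Prime]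

/-- A character of `p`-defect zero vanishes on `p`-singular elements. -/
theorem defect_zero_vanish {χ : G → ℂ} (hχ : IsIrrCharacter G χ) (q : ℕ) (hq : q.Prime) {d : ℕ}
    (hd : χ 1 = d) (hdef : q ^ (Nat.card G).factorization q ∣ d) {x : G} (hx : q ∣ orderOf x) :
    χ x = 0 := by
  obtain ⟨n, ρ, hρ, rfl⟩ := hχ
  have h1 : ρ.character 1 = (Module.finrank ℂ (Fin n → ℂ) : ℂ) := Representation.char_one ρ
  have h2 : Module.finrank ℂ (Fin n → ℂ) = d := by
    rw [h1] at hd
    exact_mod_cast hd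
  have := hρ
  exact Cfsg.Agent.S0165.result ρ q ((Nat.card G).factorization q) hq (Nat.ordProj_dvd _ _)
    (Nat.pow_succ_factorization_not_dvd Nat.card_pos.ne' hq) (by rw [h2]; exact hdef) x hx

/-- Integrality of the central character at an element with integer value. -/
theorem dvd_index_mul {χ : G → ℂ} (hχ : IsIrrCharacter G χ) {d : ℕ} (hd : χ 1 = d) {x : G} {v : ℤ}
    (hx : χ x = v) : (d : ℤ) ∣ (Subgroup.centralizer ({x} : Set G)).index * v := by
  have hd0 : (d : ℂ) ≠ 0 := by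
    rw [← hd]
    exact Cfsg.Agent.Characters.Core.isIrr_apply_one_ne_zero hχ
  obtain ⟨n, ρ, hρ, rfl⟩ := hχ
  have := hρ
  have h1 := Cfsg.Agent.Characters.CentralCharacter.isIntegral_index_mul_character_div ρ x
  have h2 : ρ.character 1 = (Module.finrank ℂ (Fin n → ℂ) : ℂ) := Representation.char_one ρ
  rw [hx, ← h2, hd] at h1
  obtain ⟨z, hz⟩ := Cfsg.Agent.Characters.GaloisBasic.exists_int_of_isIntegral h1
    ⟨((Subgroup.centralizer ({x} : Set G)).index * v / d : ℚ), by push_cast; rfl⟩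
  refine ⟨z, ?_⟩
  rw [div_eq_iff hd0] at hz
  have h3 : (((Subgroup.centralizer ({x} : Set G)).index * v : ℤ) : ℂ) = ((z * d : ℤ) : ℂ) := by
    push_cast
    exact hz
  have h4 : ((Subgroup.centralizer ({x} : Set G)).index * v : ℤ) = z * d := by exact_mod_cast h3
  rw [h4, mul_comm]

variable {P : Sylow p G}

/-- `p`-singular elements have order `p`. -/
theorem orderOf_eq (h : DihedralP.Hyp P) {g : G} (hg : p ∣ orderOf g) : orderOf g = p := by
  obtain ⟨m, hm⟩ := hg
  have hm0 : 0 < m := by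
    have h1 := orderOf_pos g
    rw [hm] at h1
    exact Nat.pos_of_mul_pos_left h1
  have hy : orderOf (g ^ m) = p := by
    rw [orderOf_pow_of_dvd hm0.ne' (by rw [hm]; exact Dvd.intro_left _ rfl), hm,
      Nat.mul_div_cancel _ hm0]
  have h1 : IsPGroup p (Subgroup.zpowers (g ^ m)) := by
    apply IsPGroup.of_card (n := 1)
    rw [Nat.card_zpowers, hy, pow_one]
  obtain ⟨Q, hQ⟩ := h1.exists_le_sylow
  obtain ⟨c, hc⟩ := MulAction.exists_smul_eq G Q P
  have h2 : c * g ^ m * c⁻¹ ∈ (P : Subgroup G) := by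
    rw [← hc]
    exact Subgroup.smul_mem_pointwise_smul (g ^ m) (MulAut.conj c) _
      (hQ (Subgroup.mem_zpowers _))
  have h3 : c * g ^ m * c⁻¹ ≠ 1 := by
    intro h4
    have h5 : g ^ m = 1 := by
      have : g ^ m = c⁻¹ * (c * g ^ m * c⁻¹) * c := by group
      rw [this, h4]
      group
    rw [h5, orderOf_one] at hy
    exact hp.out.one_lt.ne hy
  have h4 : c * g * c⁻¹ ∈ (P : Subgroup G) := by
    rw [← h.centralizer_singleton h2 h3, Subgroup.mem_centralizer_singleton_iff]
    rw [← conj_pow]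
    exact (Commute.refl (c * g * c⁻¹)).pow_right m
  have h5 : orderOf (c * g * c⁻¹) = orderOf g := (MulAut.conj c).orderOf_eq g
  have h6 : orderOf (c * g * c⁻¹) ∣ p := by
    have h7 : orderOf (⟨c * g * c⁻¹, h4⟩ : (P : Subgroup G)) ∣ Nat.card (P : Subgroup G) :=
      orderOf_dvd_natCard _
    rw [Subgroup.orderOf_mk] at h7
    rw [← h.card]
    exact h7
  rw [h5] at h6
  exact Nat.dvd_antisymm h6 ⟨m, hm⟩

/-- Norms of combinations of distinct irreducible characters. -/
theorem norm_comb {I : Type*} [Fintype I] (F : I → IrrCharacter G) (hF : Function.Injective F)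
    (c : I → ℝ) : ∑ g : G, (∑ i, (c i : ℂ) * (F i : G → ℂ) g) *
      conj (∑ i, (c i : ℂ) * (F i : G → ℂ) g) = (Nat.card G : ℂ) * ∑ i, (c i : ℂ) ^ 2 := by
  classical
  have hG : (Nat.card G : ℂ) ≠ 0 := by exact_mod_cast Nat.card_pos.ne'
  have h2 : ∀ g : G, (∑ i, (c i : ℂ) * (F i : G → ℂ) g) *
      conj (∑ i, (c i : ℂ) * (F i : G → ℂ) g) = ∑ i, ∑ j, ((c i : ℂ) * (c j : ℂ)) *
        ((F i : G → ℂ) g * conj ((F j : G → ℂ) g)) := by
    intro g
    rw [map_sum, Finset.sum_mul_sum]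
    refine Finset.sum_congr rfl fun i _ => Finset.sum_congr rfl fun j _ => ?_
    rw [map_mul, Complex.conj_ofReal]
    ring
  rw [Finset.sum_congr rfl fun g _ => h2 g, Finset.sum_comm, Finset.mul_sum]
  refine Finset.sum_congr rfl fun i _ => ?_
  rw [Finset.sum_comm, Finset.sum_eq_single i]
  · rw [← Finset.mul_sum]
    have h3 := classInner_irr_self (F i).2
    rw [Cfsg.Agent.Characters.Core.classInner_def] at h3
    have h4 : ∑ g : G, (F i : G → ℂ) g * conj ((F i : G → ℂ) g) = Nat.card G := by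
      field_simp at h3
      exact h3
    rw [h4]
    ring
  · intro j _ hj
    rw [← Finset.mul_sum]
    have h3 := classInner_irr_ne (F i).2 (F j).2 (fun h => hj (hF (Subtype.ext h)).symm)
    rw [Cfsg.Agent.Characters.Core.classInner_def] at h3
    have h4 : ∑ g : G, (F i : G → ℂ) g * conj ((F j : G → ℂ) g) = 0 :=
      (mul_eq_zero.1 h3).resolve_left (inv_ne_zero hG)
    rw [h4, mul_zero]
  · intro h3
    exact absurd (Finset.mem_univ _) h3

/-- The number of elements of even order. -/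
theorem card_even (h : DihedralP.Hyp P) {ρ : IrrCharacter G} (hρ0 : ∀ g : G, 2 ∣ orderOf g →
    (ρ : G → ℂ) g = 0) {Ω : Type} [Fintype Ω] (Ψ : Ω → IrrCharacter G)
    (hinj : Function.Injective Ψ) (h1 : ∀ ω, (Ψ ω : G → ℂ) ≠ 1)
    (hΨ : ∀ (ω : Ω) (g : G), ¬ p ∣ orderOf g → (Ψ ω : G → ℂ) g = (ρ : G → ℂ) g - 1)
    (hp5 : 5 < p) :
    Nat.card {g : G // 2 ∣ orderOf g} * (1 + Fintype.card Ω) ≤ Nat.card G := by
  classical
  let F : Option Ω → IrrCharacter G := fun i => match i with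
    | none => ⟨1, Cfsg.Agent.Characters.Core.isIrr_one⟩
    | some ω => Ψ ω
  have hF : Function.Injective F := by
    rintro (_ | ω) (_ | ω') hω
    · rfl
    · exact absurd (congrArg Subtype.val hω).symm (h1 ω')
    · exact absurd (congrArg Subtype.val hω) (h1 ω)
    · exact congrArg some (hinj hω)
  let c : Option Ω → ℝ := fun i => match i with
    | none => 1
    | some ω => -1
  have h2 := norm_comb F hF c
  have h3 : ∑ i, (c i : ℂ) ^ 2 = 1 + Fintype.card Ω := by
    rw [Fintype.sum_option]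
    simp [c]
  rw [h3] at h2
  have h4 : ∀ g : G, (∑ i, (c i : ℂ) * (F i : G → ℂ) g) *
      conj (∑ i, (c i : ℂ) * (F i : G → ℂ) g) =
      ((Complex.normSq (∑ i, (c i : ℂ) * (F i : G → ℂ) g) : ℝ) : ℂ) :=
    fun g => Complex.mul_conj _
  rw [Finset.sum_congr rfl fun g _ => h4 g] at h2
  have h5 : ∑ g : G, Complex.normSq (∑ i, (c i : ℂ) * (F i : G → ℂ) g) =
      (Nat.card G : ℝ) * (1 + Fintype.card Ω) := by exact_mod_cast h2
  have h6 : ∀ g : G, 2 ∣ orderOf g → Complex.normSq (∑ i, (c i : ℂ) * (F i : G → ℂ) g) =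
      (1 + Fintype.card Ω : ℝ) ^ 2 := by
    intro g hg
    have hgp : ¬ p ∣ orderOf g := by
      intro hgp
      rw [orderOf_eq h hgp] at hg
      rcases (Nat.dvd_prime hp.out).1 hg with h' | h' <;> omega
    have h7 : ∑ i, (c i : ℂ) * (F i : G → ℂ) g = ((1 + Fintype.card Ω : ℝ) : ℂ) := by
      rw [Fintype.sum_option]
      have h8 : ∀ ω : Ω, (c (some ω) : ℂ) * (F (some ω) : G → ℂ) g = 1 := by
        intro ω
        show ((-1 : ℝ) : ℂ) * (Ψ ω : G → ℂ) g = 1
        rw [hΨ ω g hgp, hρ0 g hg]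
        push_cast
        ring
      rw [Finset.sum_congr rfl fun ω _ => h8 ω, Finset.sum_const, Finset.card_univ, nsmul_eq_mul]
      show ((1 : ℝ) : ℂ) * (1 : ℂ) + _ = _
      push_cast
      ring
    rw [h7, Complex.normSq_ofReal]
    ring
  have h7 : ∑ g ∈ Finset.univ.filter (fun g : G => 2 ∣ orderOf g),
      Complex.normSq (∑ i, (c i : ℂ) * (F i : G → ℂ) g) ≤
      (Nat.card G : ℝ) * (1 + Fintype.card Ω) := by
    rw [← h5]
    exact Finset.sum_le_sum_of_subset_of_nonneg (Finset.filter_subset _ _)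
      fun g _ _ => Complex.normSq_nonneg _
  rw [Finset.sum_congr rfl fun g hg => h6 g (Finset.mem_filter.1 hg).2, Finset.sum_const,
    nsmul_eq_mul] at h7
  have h8 : (Finset.univ.filter (fun g : G => 2 ∣ orderOf g)).card =
      Nat.card {g : G // 2 ∣ orderOf g} := by
    rw [Nat.card_eq_fintype_card, Fintype.card_subtype]
  rw [h8] at h7
  have h9 : (0 : ℝ) < 1 + Fintype.card Ω := by positivity
  have h10 : ((Nat.card {g : G // 2 ∣ orderOf g} : ℝ) * (1 + Fintype.card Ω)) *
      (1 + Fintype.card Ω) ≤ (Nat.card G : ℝ) * (1 + Fintype.card Ω) := by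
    rw [mul_assoc, ← pow_two]
    exact h7
  have h11 := le_of_mul_le_mul_right h10 h9
  exact_mod_cast h11

/-- Counting elements whose `2`-part is conjugate to the involution `x`. -/
theorem card_mul_le {x : G} (hx : orderOf x = 2) :
    Nat.card G * Nat.card {a : Subgroup.centralizer ({x} : Set G) // ¬ 2 ∣ orderOf a} ≤
      Nat.card (Subgroup.centralizer ({x} : Set G)) * Nat.card {g : G // 2 ∣ orderOf g} := by
  classical
  set C := Subgroup.centralizer ({x} : Set G) with hC
  set N := ordCompl[2] (Nat.card G) with hN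
  have hxx : x * x = 1 := by
    have := pow_orderOf_eq_one x
    rw [hx, pow_two] at this
    exact this
  have hNodd : ¬ 2 ∣ N := Nat.not_dvd_ordCompl Nat.prime_two Nat.card_pos.ne'
  have hxN : x ^ N = x := by
    obtain ⟨r, hr⟩ : ∃ r, N = 2 * r + 1 := ⟨N / 2, by omega⟩
    rw [hr, pow_succ, pow_mul, pow_two, hxx, one_pow, one_mul]
  have haN : ∀ a : C, ¬ 2 ∣ orderOf a → (a : G) ^ N = 1 := by
    intro a ha
    apply orderOf_dvd_iff_pow_eq_one.1
    rw [Subgroup.orderOf_coe]
    have h1 : orderOf a ∣ Nat.card G := by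
      rw [← Subgroup.orderOf_coe]
      exact orderOf_dvd_natCard _
    have h2 : (orderOf a).Coprime (2 ^ (Nat.card G).factorization 2) := by
      apply Nat.Coprime.pow_right
      rw [Nat.coprime_comm, Nat.prime_two.coprime_iff_not_dvd]
      exact ha
    rw [← Nat.ordProj_mul_ordCompl_eq_self (Nat.card G) 2] at h1
    exact h2.dvd_of_dvd_mul_left h1
  have hcomm : ∀ a : C, Commute x (a : G) := by
    intro a
    exact (Subgroup.mem_centralizer_singleton_iff.1 a.2).symm
  have hprod : ∀ a : C, ¬ 2 ∣ orderOf a → (x * (a : G)) ^ N = x := by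
    intro a ha
    rw [(hcomm a).mul_pow, hxN, haN a ha, mul_one]
  have heven : ∀ (g : G) (a : C), ¬ 2 ∣ orderOf a → 2 ∣ orderOf (g * (x * (a : G)) * g⁻¹) := by
    intro g a ha
    have h1 : orderOf (g * (x * (a : G)) * g⁻¹) = orderOf (x * (a : G)) :=
      (MulAut.conj g).orderOf_eq (x * (a : G))
    rw [h1]
    have h2 : orderOf ((x * (a : G)) ^ N) ∣ orderOf (x * (a : G)) := orderOf_pow_dvd N
    rw [hprod a ha, hx] at h2
    exact h2
  let Φ : G × {a : C // ¬ 2 ∣ orderOf a} → {g : G // 2 ∣ orderOf g} := fun q =>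
    ⟨q.1 * (x * ((q.2 : C) : G)) * q.1⁻¹, heven _ _ q.2.2⟩
  have hfib : ∀ s : {g : G // 2 ∣ orderOf g},
      (Finset.univ.filter fun q : G × {a : C // ¬ 2 ∣ orderOf a} => Φ q = s).card ≤ Nat.card C := by
    intro s
    rcases (Finset.univ.filter fun q : G × {a : C // ¬ 2 ∣ orderOf a} => Φ q = s).eq_empty_or_nonempty
      with h1 | ⟨q₀, hq₀⟩
    · rw [h1, Finset.card_empty]
      exact Nat.zero_le _
    · have hpow : ∀ q : G × {a : C // ¬ 2 ∣ orderOf a}, Φ q = s →
          q.1 * x * q.1⁻¹ = (s : G) ^ N := by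
        intro q hq
        rw [← hq]
        show _ = (q.1 * (x * ((q.2 : C) : G)) * q.1⁻¹) ^ N
        rw [conj_pow, hprod _ q.2.2]
      have h2 := hpow q₀ (Finset.mem_filter.1 hq₀).2
      have hmem : ∀ q : G × {a : C // ¬ 2 ∣ orderOf a}, Φ q = s → q₀.1⁻¹ * q.1 ∈ C := by
        intro q hq
        have h3 := hpow q hq
        rw [← h2] at h3
        refine Subgroup.mem_centralizer_singleton_iff.2 ?_
        calc q₀.1⁻¹ * q.1 * x = q₀.1⁻¹ * (q.1 * x * q.1⁻¹) * q.1 := by group
          _ = q₀.1⁻¹ * (q₀.1 * x * q₀.1⁻¹) * q.1 := by rw [h3]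
          _ = x * (q₀.1⁻¹ * q.1) := by group
      rw [Nat.card_eq_fintype_card, ← Finset.card_univ]
      refine Finset.card_le_card_of_injOn
        (fun q => if hq : Φ q = s then (⟨q₀.1⁻¹ * q.1, hmem q hq⟩ : C) else 1)
        (fun _ _ => Finset.mem_univ _) ?_
      intro q hq q' hq' hqq
      have e1 : Φ q = s := (Finset.mem_filter.1 hq).2
      have e2 : Φ q' = s := (Finset.mem_filter.1 hq').2
      simp only [dif_pos e1, dif_pos e2] at hqq
      have e3 : q.1 = q'.1 := mul_left_cancel (congrArg Subtype.val hqq)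
      have e4 : q.1 * (x * ((q.2 : C) : G)) * q.1⁻¹ = q'.1 * (x * ((q'.2 : C) : G)) * q'.1⁻¹ :=
        congrArg Subtype.val (e1.trans e2.symm)
      rw [e3] at e4
      have e5 : ((q.2 : C) : G) = ((q'.2 : C) : G) :=
        mul_left_cancel (mul_left_cancel (mul_right_cancel e4))
      exact Prod.ext e3 (Subtype.ext (Subtype.ext e5))
  have h1 := Finset.card_le_mul_card_image_of_maps_to (s := Finset.univ)
    (t := (Finset.univ : Finset {g : G // 2 ∣ orderOf g})) (f := Φ)
    (fun _ _ => Finset.mem_univ _) (Nat.card C) (fun s _ => hfib s)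
  rw [Finset.card_univ, Finset.card_univ, Fintype.card_prod, ← Nat.card_eq_fintype_card,
    ← Nat.card_eq_fintype_card, ← Nat.card_eq_fintype_card] at h1
  exact h1

/-- An element of odd order. -/
theorem pow_ordCompl_eq_one {C : Type*} [Group C] [Finite C] (a : C) :
    a ^ (ordCompl[2] (Nat.card C)) = 1 ↔ ¬ 2 ∣ orderOf a := by
  constructor
  · intro h1 h2
    exact Nat.not_dvd_ordCompl Nat.prime_two Nat.card_pos.ne'
      (h2.trans (orderOf_dvd_of_pow_eq_one h1))
  · intro ha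
    apply orderOf_dvd_iff_pow_eq_one.1
    have h1 : orderOf a ∣ Nat.card C := orderOf_dvd_natCard _
    have h2 : (orderOf a).Coprime (2 ^ (Nat.card C).factorization 2) := by
      apply Nat.Coprime.pow_right
      rw [Nat.coprime_comm, Nat.prime_two.coprime_iff_not_dvd]
      exact ha
    rw [← Nat.ordProj_mul_ordCompl_eq_self (Nat.card C) 2] at h1
    exact h2.dvd_of_dvd_mul_left h1

theorem norm_le {χ : G → ℂ} (hχ : IsIrrCharacter G χ) {d : ℕ} (hd : χ 1 = d) (g : G) :
    ‖χ g‖ ≤ d := by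
  obtain ⟨n, ρ, hρ, rfl⟩ := hχ
  have h2 := Cfsg.Agent.Characters.Values.norm_character_le ρ g
  have h3 : (Module.finrank ℂ (Fin n → ℂ) : ℂ) = d := by rw [← hd, Representation.char_one]
  have h4 : Module.finrank ℂ (Fin n → ℂ) = d := by exact_mod_cast h3
  rwa [h4] at h2

/-- **The order of `G`.** -/
theorem card_eq [IsSimpleGroup G] (h : DihedralP.Hyp P) (hp5 : 5 < p) (ρ : IrrCharacter G)
    (hρ1 : (ρ : G → ℂ) 1 = (p : ℂ) - 1)
    (hρP : ∀ y ∈ (P : Subgroup G), y ≠ 1 → (ρ : G → ℂ) y = -1) {Ω : Type} [Fintype Ω]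
    (Ψ : Ω → IrrCharacter G) (hΩ : 2 * Fintype.card Ω = p - 1)
    (hinj : Function.Injective Ψ) (h1 : ∀ ω, (Ψ ω : G → ℂ) ≠ 1)
    (hΨ : ∀ (ω : Ω) (g : G), ¬ p ∣ orderOf g → (Ψ ω : G → ℂ) g = (ρ : G → ℂ) g - 1) :
    Nat.card G = p * (p - 1) * (p - 2) := by
  classical
  obtain ⟨x, hx, hxP⟩ := h.exists_not_mem
  have hxo : orderOf x = 2 := h.orderOf_eq_two hx hxP
  have hp1 : 1 < p := hp.out.one_lt
  have hnc : ¬ ∀ a b : G, a * b = b * a := by
    intro hc
    apply hxP
    rw [← h.cent, Subgroup.mem_centralizer_iff]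
    exact fun y _ => hc y x
  have hρ1' : (ρ : G → ℂ) 1 = ((p - 1 : ℕ) : ℂ) := by
    rw [hρ1, Nat.cast_sub hp1.le]
    push_cast
    rfl
  have hρne : (ρ : G → ℂ) ≠ 1 := by
    intro h2
    rw [h2] at hρ1'
    have h3 : ((1 : ℕ) : ℂ) = ((p - 1 : ℕ) : ℂ) := by rw [Nat.cast_one]; exact hρ1'
    have h4 : 1 = p - 1 := by exact_mod_cast h3
    omega
  have hker : ∀ g : G, ‖(ρ : G → ℂ) g‖ = ((p - 1 : ℕ) : ℝ) → g = 1 := by
    intro g hg
    by_contra hg1
    exact hρne (Cfsg.Agent.SporadicA.M11CharSimple.eq_one_of_norm_eq hnc ρ.2 hg1 hρ1' hg)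
  have hf2 : (Nat.card G).factorization 2 = (p - 1).factorization 2 := by
    refine h.factorization_two ρ.2 hρ1 hρP ?_
    intro b hb hcon
    have h2 := hker b (by rw [hcon, hρ1', Complex.norm_natCast])
    rw [h2, orderOf_one] at hb
    omega
  have hρ0 : ∀ g : G, 2 ∣ orderOf g → (ρ : G → ℂ) g = 0 := fun g hg =>
    defect_zero_vanish ρ.2 2 Nat.prime_two hρ1' (by rw [hf2]; exact Nat.ordProj_dvd _ _) hg
  have hE := card_even h hρ0 Ψ hinj h1 hΨ hp5
  have hcm := card_mul_le hxo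
  have hcardmul := h.card_mul ρ.2 hρ1 hρP hx hxP
  set C := Subgroup.centralizer ({x} : Set G) with hC
  set c := Nat.card C with hc
  set A := Nat.card {a : C // ¬ 2 ∣ orderOf a} with hA
  set E := Nat.card {g : G // 2 ∣ orderOf g} with hEdef
  set t := Fintype.card Ω with ht
  have hG0 : 0 < Nat.card G := Nat.card_pos
  have hc0 : 0 < c := Nat.card_pos
  have hAt : A * (1 + t) ≤ c := by
    have h2 : Nat.card G * (A * (1 + t)) ≤ Nat.card G * c := by
      calc Nat.card G * (A * (1 + t)) = (Nat.card G * A) * (1 + t) := by ring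
        _ ≤ (c * E) * (1 + t) := Nat.mul_le_mul_right _ hcm
        _ = c * (E * (1 + t)) := by ring
        _ ≤ c * Nat.card G := Nat.mul_le_mul_left _ hE
        _ = Nat.card G * c := by ring
    exact Nat.le_of_mul_le_mul_left h2 hG0
  have hΩne : Nonempty Ω := by
    rw [← Fintype.card_pos_iff]
    omega
  obtain ⟨ω⟩ := hΩne
  have hxreg : ¬ p ∣ orderOf x := by
    rw [hxo]
    intro h2
    have := Nat.le_of_dvd (by norm_num) h2
    omega
  have h1reg : ¬ p ∣ orderOf (1 : G) := by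
    rw [orderOf_one]; exact hp.out.not_dvd_one
  -- `p - 1` divides `c`
  obtain ⟨k, hk⟩ : p - 1 ∣ c := by
    have hΨ1 : (Ψ ω : G → ℂ) 1 = ((p - 2 : ℕ) : ℂ) := by
      rw [hΨ ω 1 h1reg, hρ1, Nat.cast_sub (by omega)]
      push_cast
      ring
    have hΨx : (Ψ ω : G → ℂ) x = ((-1 : ℤ) : ℂ) := by
      rw [hΨ ω x hxreg, hρ0 x (by rw [hxo])]
      push_cast
      ring
    have h2 := dvd_index_mul (Ψ ω).2 hΨ1 hΨx
    rw [mul_neg_one, dvd_neg] at h2
    have h3 : (p - 2) ∣ C.index := by exact_mod_cast h2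
    obtain ⟨I, hI⟩ := h3
    have h4 : c * C.index = Nat.card G := Subgroup.card_mul_index C
    rw [← h4, hI] at hcardmul
    have h5 : (c * (p - 2)) * (I * (p - 1)) = (c * (p - 2)) * (p * c) := by
      calc (c * (p - 2)) * (I * (p - 1)) = c * ((p - 2) * I) * (p - 1) := by ring
        _ = p * (p - 2) * c ^ 2 := hcardmul
        _ = (c * (p - 2)) * (p * c) := by ring
    have h6 := Nat.eq_of_mul_eq_mul_left (Nat.mul_pos hc0 (by omega)) h5
    have h7 : p - 1 ∣ p * c := ⟨I, by rw [← h6]; ring⟩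
    have h8 : (p - 1).Coprime p := by
      rw [Nat.coprime_comm, hp.out.coprime_iff_not_dvd]
      intro h9
      have := Nat.le_of_dvd (by omega) h9
      omega
    exact h8.dvd_of_dvd_mul_left h7
  have hk0 : 0 < k := by
    rcases Nat.eq_zero_or_pos k with h2 | h2
    · rw [h2, mul_zero] at hk; omega
    · exact h2
  have hcardG : Nat.card G = p * (p - 2) * (p - 1) * k ^ 2 := by
    apply Nat.eq_of_mul_eq_mul_right (show 0 < p - 1 by omega)
    rw [hcardmul, hk]
    ring
  have hk2 : ¬ 2 ∣ k := by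
    intro h2
    have h3 : 2 ^ ((p - 1).factorization 2 + 1) ∣ Nat.card G := by
      have h4 : 2 ^ (p - 1).factorization 2 ∣ p - 1 := Nat.ordProj_dvd _ _
      have h5 : 2 ∣ k ^ 2 := dvd_pow h2 (by norm_num)
      rw [hcardG, pow_succ, mul_assoc]
      exact Dvd.dvd.mul_left (mul_dvd_mul h4 h5) _
    rw [← hf2] at h3
    exact Nat.pow_succ_factorization_not_dvd hG0.ne' Nat.prime_two h3
  -- Frobenius
  have hfrob : ordCompl[2] c ∣ A := by
    have h2 := Cfsg.Agent.H418.Frob.frobenius_dvd (G := C) (ordCompl[2] c) (Nat.ordCompl_dvd _ _)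
    have h3 : Nat.card {g : C // g ^ (ordCompl[2] c) = 1} = A := by
      apply Nat.card_congr
      exact Equiv.subtypeEquivRight fun a => pow_ordCompl_eq_one a
    rwa [h3] at h2
  have hoc : ordCompl[2] c = ordCompl[2] (p - 1) * k := by
    rw [hk, Nat.ordCompl_mul, (Nat.ordCompl_eq_self_iff_zero_or_not_dvd k Nat.prime_two).2
      (Or.inr hk2)]
  have hw0 : 0 < ordCompl[2] (p - 1) := Nat.ordCompl_pos 2 (by omega)
  obtain ⟨j, hj⟩ := hfrob
  rw [hoc] at hj
  have hA0 : 0 < A := by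
    have : Nonempty {a : C // ¬ 2 ∣ orderOf a} := ⟨⟨1, by rw [orderOf_one]; norm_num⟩⟩
    exact Nat.card_pos
  have hj0 : 0 < j := by
    rcases Nat.eq_zero_or_pos j with h2 | h2
    · rw [h2, mul_zero] at hj; omega
    · exact h2
  have hAk : A = k := by
    set w := ordCompl[2] (p - 1) with hw
    have h2 : (p + 1) * (w * j * k) ≤ 2 * (p - 1) * k := by
      have h3 : 2 * (A * (1 + t)) ≤ 2 * c := Nat.mul_le_mul_left _ hAt
      have h4 : 2 * (A * (1 + t)) = A * (2 + 2 * t) := by ring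
      rw [h4, hΩ, hj, hk] at h3
      have h5 : 2 + (p - 1) = p + 1 := by omega
      rw [h5] at h3
      calc (p + 1) * (w * j * k) = w * k * j * (p + 1) := by ring
        _ ≤ 2 * ((p - 1) * k) := h3
        _ = 2 * (p - 1) * k := by ring
    have h3 : (p + 1) * (w * j) ≤ 2 * (p - 1) := by
      apply Nat.le_of_mul_le_mul_right _ hk0
      calc (p + 1) * (w * j) * k = (p + 1) * (w * j * k) := by ring
        _ ≤ _ := h2
    have h4 : w * j < 2 := by
      by_contra hcon
      have h5 : (p + 1) * 2 ≤ (p + 1) * (w * j) := Nat.mul_le_mul_left _ (by omega)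
      omega
    have h5 : 0 < w * j := Nat.mul_pos hw0 hj0
    have h6 : w * j = 1 := by omega
    rw [hj]
    calc w * k * j = (w * j) * k := by ring
      _ = k := by rw [h6, one_mul]
  -- the restriction to `C`
  have hCreg : ∀ g : C, ¬ p ∣ orderOf (g : G) := by
    intro g hg
    have h2 := orderOf_eq h hg
    have h3 : Commute x (g : G) := (Subgroup.mem_centralizer_singleton_iff.1 g.2).symm
    have h4 : orderOf (x * (g : G)) = 2 * p := by
      rw [h3.orderOf_mul_eq_mul_orderOf_of_coprime, hxo, h2]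
      rw [hxo, h2]
      exact (Nat.coprime_primes Nat.prime_two hp.out).2 (by omega)
    have h5 := orderOf_eq h (g := x * (g : G)) (by rw [h4]; exact Dvd.intro_left _ rfl)
    omega
  obtain ⟨n, hn⟩ := classInner_isNat (isCharacter_comp C.subtype (isIrr_isCharacter (Ψ ω).2))
    (isCharacter_one (G := C))
  rw [Cfsg.Agent.Characters.Core.classInner_def] at hn
  have hcC : (c : ℂ) ≠ 0 := by exact_mod_cast hc0.ne'
  have h2 : ∑ g : C, ((ρ : G → ℂ) (g : G) - 1) = c * n := by
    have h3 : ∑ g : C, ((Ψ ω : G → ℂ) ∘ C.subtype) g * conj ((1 : C → ℂ) g) =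
        ∑ g : C, ((ρ : G → ℂ) (g : G) - 1) := by
      refine Finset.sum_congr rfl fun g _ => ?_
      show (Ψ ω : G → ℂ) (g : G) * conj (1 : ℂ) = _
      rw [map_one, mul_one, hΨ ω g (hCreg g)]
    rw [h3] at hn
    rw [← hn, ← hc, mul_inv_cancel_left₀ hcC]
  have h3 : ∑ g ∈ Finset.univ.filter (fun g : C => ¬ 2 ∣ orderOf g), (ρ : G → ℂ) (g : G) =
      c * (n + 1) := by
    rw [Finset.sum_sub_distrib, Finset.sum_const, Finset.card_univ, nsmul_eq_mul, mul_one,
      ← Nat.card_eq_fintype_card, ← hc] at h2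
    rw [Finset.sum_filter]
    have h4 : ∀ g : C, (if ¬ 2 ∣ orderOf g then (ρ : G → ℂ) (g : G) else 0) = (ρ : G → ℂ) (g : G) := by
      intro g
      by_cases hg : 2 ∣ orderOf g
      · rw [if_neg (not_not.2 hg), hρ0 g (by rw [Subgroup.orderOf_coe]; exact hg)]
      · rw [if_pos hg]
    rw [Finset.sum_congr rfl fun g _ => h4 g]
    linear_combination h2
  have h4 : ∑ g ∈ Finset.univ.filter (fun g : C => ¬ 2 ∣ orderOf g),
      (((p - 1 : ℕ) : ℝ) - ((ρ : G → ℂ) (g : G)).re) ≤ 0 := by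
    have h5 := congrArg Complex.re h3
    rw [Complex.re_sum] at h5
    have h6 : ((c : ℂ) * (n + 1)).re = (c : ℝ) * (n + 1) := by
      have : ((c : ℂ) * (n + 1)) = (((c : ℝ) * (n + 1) : ℝ) : ℂ) := by push_cast; rfl
      rw [this, Complex.ofReal_re]
    rw [h6] at h5
    rw [Finset.sum_sub_distrib, h5, Finset.sum_const, nsmul_eq_mul]
    have h7 : (Finset.univ.filter (fun g : C => ¬ 2 ∣ orderOf g)).card = k := by
      rw [← hAk, hA, Nat.card_eq_fintype_card, Fintype.card_subtype]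
    rw [h7, hk]
    push_cast
    have h8 : (0 : ℝ) ≤ ((p - 1 : ℕ) : ℝ) * k * n := by positivity
    nlinarith
  have h5 : ∀ g : C, 0 ≤ (((p - 1 : ℕ) : ℝ) - ((ρ : G → ℂ) (g : G)).re) := by
    intro g
    have h6 := norm_le ρ.2 hρ1' (g : G)
    have h7 := Complex.re_le_norm ((ρ : G → ℂ) (g : G))
    linarith
  have h6 : ∀ g : C, ¬ 2 ∣ orderOf g → g = 1 := by
    intro g hg
    have h7 := (Finset.sum_eq_zero_iff_of_nonneg (fun g _ => h5 g)).1
      (le_antisymm h4 (Finset.sum_nonneg fun g _ => h5 g)) g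
      (Finset.mem_filter.2 ⟨Finset.mem_univ _, hg⟩)
    have h8 := norm_le ρ.2 hρ1' (g : G)
    have h9 := Complex.re_le_norm ((ρ : G → ℂ) (g : G))
    exact Subtype.ext (hker g (le_antisymm h8 (by linarith)))
  have hk1 : k = 1 := by
    rw [← hAk, hA, Nat.card_eq_one_iff_unique]
    refine ⟨⟨fun a b => Subtype.ext ?_⟩, ⟨1, by rw [orderOf_one]; norm_num⟩⟩
    rw [h6 a a.2, h6 b b.2]
  rw [hcardG, hk1]
  ring

end Cfsg.Agent.H656.PM2Order
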