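import Mathlib
import Cfsg.Agent.H656.PermSetup
import Cfsg.Agent.H656.DihedralSimple

/-!
# Simplicity of primitive groups of degree `2 p` with a Sylow `p`-normalizer of order `2 p`
-/

set_option autoImplicit false

open Cfsg

namespace Cfsg.Agent.H656.TwoPSimple

open Cfsg.Agent.H656.PermSetup

variable {G : Type*} [Group G] [Finite G] {p : ℕ} [Fact p.Prime]

omit [Finite G] in
/-- A normal `p`-complement of a normal subgroup is normal. -/
theorem normal_map_complement {K : Subgroup G} (hK : K.Normal) (M : Subgroup K) (hM : M.Normal)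
    (hidx : M.index = p) (hdvd : ¬ p ∣ Nat.card M) : (M.map K.subtype).Normal := by
  have hpp : p.Prime := Fact.out
  have key : ∀ x : K, x ∈ M ↔ ¬ p ∣ orderOf x := by
    intro x
    constructor
    · intro hx h
      apply hdvd
      have h1 : orderOf (⟨x, hx⟩ : M) ∣ Nat.card M := orderOf_dvd_natCard _
      rw [Subgroup.orderOf_mk] at h1
      exact h.trans h1
    · intro hx
      rw [← QuotientGroup.eq_one_iff]
      have h1 : orderOf ((x : K ⧸ M)) ∣ p := by
        rw [← hidx]
        exact orderOf_dvd_natCard _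
      have h2 : orderOf ((x : K ⧸ M)) ∣ orderOf x := orderOf_map_dvd (QuotientGroup.mk' M) x
      rcases (Nat.dvd_prime hpp).mp h1 with h3 | h3
      · exact orderOf_eq_one_iff.mp h3
      · rw [h3] at h2
        exact absurd h2 hx
  constructor
  rintro _ ⟨x, hx, rfl⟩ g
  have hgx : g * (x : G) * g⁻¹ ∈ K := hK.conj_mem _ x.2 g
  refine ⟨⟨g * x * g⁻¹, hgx⟩, ?_, rfl⟩
  change (⟨g * x * g⁻¹, hgx⟩ : K) ∈ M
  rw [key, Subgroup.orderOf_mk]
  have h1 : orderOf (g * (x : G) * g⁻¹) = orderOf (x : G) := (MulAut.conj g).orderOf_eq (x : G)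
  rw [h1, Subgroup.orderOf_coe]
  exact (key x).mp hx

/-- A normal subgroup of order divisible by `p` contains the Sylow subgroups of order `p`. -/
theorem sylow_le {P : Sylow p G} (hP : Nat.card P = p) {K : Subgroup G} (hK : K.Normal)
    (hdvd : p ∣ Nat.card K) : (P : Subgroup G) ≤ K := by
  have hP' : Nat.card (P : Subgroup G) = p := hP
  obtain ⟨z, hz⟩ := exists_prime_orderOf_dvd_card' p hdvd
  have hz' : orderOf (z : G) = p := by rw [Subgroup.orderOf_coe]; exact hz
  have h1 : IsPGroup p (Subgroup.zpowers (z : G)) := by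
    apply IsPGroup.of_card (n := 1)
    rw [Nat.card_zpowers, hz', pow_one]
  obtain ⟨Q, hQ⟩ := h1.exists_le_sylow
  obtain ⟨g, hg⟩ := MulAction.exists_smul_eq G P Q
  have hQc : Nat.card (Q : Subgroup G) = p :=
    (Nat.card_congr (P.equiv Q).toEquiv).symm.trans hP'
  have h2 : Subgroup.zpowers (z : G) = Q := by
    apply Subgroup.eq_of_le_of_card_ge hQ
    rw [hQc, Nat.card_zpowers, hz']
  have h3 : (Q : Subgroup G) ≤ K := by
    rw [← h2, Subgroup.zpowers_le]
    exact z.2
  intro x hx
  have h4 : g * x * g⁻¹ ∈ (Q : Subgroup G) := by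
    rw [← hg]
    exact Subgroup.smul_mem_pointwise_smul x (MulAut.conj g) _ hx
  have h5 := hK.conj_mem _ (h3 h4) g⁻¹
  have h6 : g⁻¹ * (g * x * g⁻¹) * g⁻¹⁻¹ = x := by group
  rw [h6] at h5
  exact h5

theorem isSimpleGroup (P : Sylow p G) (hP : Nat.card P = p)
    (hN : Nat.card (Subgroup.normalizer ((P : Subgroup G) : Set G)) = 2 * p)
    (hnorm : ∀ K : Subgroup G, K.Normal → K ≠ ⊥ → p ∣ Nat.card K ∧ Nat.card K ≠ p) :
    IsSimpleGroup G := by
  have hpp : p.Prime := Fact.out
  have hP' : Nat.card (P : Subgroup G) = p := hP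
  have hnt : Nontrivial G := by
    obtain ⟨y, hy, hy1⟩ := exists_mem hP'
    exact ⟨y, 1, hy1⟩
  refine ⟨fun K hK => ?_⟩
  by_cases hKb : K = ⊥
  · exact Or.inl hKb
  right
  obtain ⟨hd, hne⟩ := hnorm K hK hKb
  have hPK := sylow_le hP hK hd
  have hfr := P.normalizer_sup_eq_top' hPK
  by_cases hNK : Subgroup.normalizer ((P : Subgroup G) : Set G) ≤ K
  · rw [sup_of_le_right] at hfr
    · exact hfr
    · exact hNK
  exfalso
  -- the Sylow subgroup of `K`
  let P' : Sylow p K := P.subtype hPK
  have hP'c : Nat.card P' = p := by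
    have h1 : Nat.card ((P' : Subgroup K)) = Nat.card (P : Subgroup G) := by
      rw [P.coe_subtype]
      exact Nat.card_congr (Subgroup.subgroupOfEquivOfLe hPK).toEquiv
    rw [hP'] at h1
    exact h1
  have hinf : Subgroup.normalizer ((P : Subgroup G) : Set G) ⊓ K = P := by
    symm
    apply Subgroup.eq_of_le_of_card_ge (le_inf Subgroup.le_normalizer hPK)
    have h1 : Nat.card (Subgroup.normalizer ((P : Subgroup G) : Set G) ⊓ K : Subgroup G) ∣ 2 * p := by
      rw [← hN]
      exact Subgroup.card_dvd_of_le inf_le_left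
    have h2 : Nat.card (Subgroup.normalizer ((P : Subgroup G) : Set G) ⊓ K : Subgroup G) ≠ 2 * p := by
      intro h
      apply hNK
      have h3 : Subgroup.normalizer ((P : Subgroup G) : Set G) ⊓ K =
          Subgroup.normalizer ((P : Subgroup G) : Set G) := by
        apply Subgroup.eq_of_le_of_card_ge inf_le_left
        rw [h, hN]
      exact inf_eq_left.mp h3
    have h3 : Nat.card (P : Subgroup G) ∣
        Nat.card (Subgroup.normalizer ((P : Subgroup G) : Set G) ⊓ K : Subgroup G) :=
      Subgroup.card_dvd_of_le (le_inf Subgroup.le_normalizer hPK)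
    rw [hP'] at h3 ⊢
    obtain ⟨k, hk⟩ := h3
    rw [hk] at h1 h2 ⊢
    have hk2 : k ∣ 2 := by
      rw [mul_comm] at h1
      exact Nat.dvd_of_mul_dvd_mul_right hpp.pos h1
    rcases (Nat.dvd_prime Nat.prime_two).mp hk2 with h | h
    · rw [h, mul_one]
    · rw [h, mul_comm] at h2
      exact absurd rfl h2
  have hcyc : IsCyclic (P' : Subgroup K) := isCyclic_of_prime_card hP'c
  have hle : Subgroup.normalizer ((P' : Subgroup K) : Set K) ≤
      Subgroup.centralizer ((P' : Subgroup K) : Set K) := by
    intro x hx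
    have h1 : (x : G) ∈ Subgroup.normalizer ((P : Subgroup G) : Set G) := by
      rw [Subgroup.mem_normalizer_iff]
      intro y
      constructor
      · intro hy
        have h2 := (Subgroup.mem_normalizer_iff.mp hx ⟨y, hPK hy⟩).mp hy
        exact h2
      · intro hy
        have hyK : y ∈ K := by
          have h3 := hK.conj_mem _ (hPK hy) (x : G)⁻¹
          have h4 : (x : G)⁻¹ * (x * y * (x : G)⁻¹) * (x : G)⁻¹⁻¹ = y := by group
          rw [h4] at h3
          exact h3
        exact (Subgroup.mem_normalizer_iff.mp hx ⟨y, hyK⟩).mpr hy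
    have h2 : (x : G) ∈ (P : Subgroup G) := by
      rw [← hinf]
      exact ⟨h1, x.2⟩
    have h3 : x ∈ (P' : Subgroup K) := h2
    rw [Subgroup.mem_centralizer_iff]
    intro y hy
    let _ := IsCyclic.commGroup (α := (P' : Subgroup K))
    exact congrArg Subtype.val (mul_comm (⟨y, hy⟩ : (P' : Subgroup K)) ⟨x, h3⟩)
  have hcompl := MonoidHom.ker_transferSylow_isComplement' P' hle
  have hndvd := MonoidHom.not_dvd_card_ker_transferSylow P' hle
  have hidx : (MonoidHom.transferSylow P' hle).ker.index = p := by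
    rw [hcompl.symm.index_eq_card]
    exact hP'c
  have hnor := normal_map_complement hK _ inferInstance hidx hndvd
  have hcardM : Nat.card ((MonoidHom.transferSylow P' hle).ker.map K.subtype) =
      Nat.card (MonoidHom.transferSylow P' hle).ker :=
    Nat.card_congr ((MonoidHom.transferSylow P' hle).ker.equivMapOfInjective K.subtype
      K.subtype_injective).toEquiv.symm
  by_cases hMb : (MonoidHom.transferSylow P' hle).ker.map K.subtype = ⊥
  · apply hne
    rw [hMb, Subgroup.card_bot] at hcardM
    rw [← Subgroup.card_mul_index (MonoidHom.transferSylow P' hle).ker, hidx, ← hcardM, one_mul]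
  · have h1 := (hnorm _ hnor hMb).1
    rw [hcardM] at h1
    exact hndvd h1

end Cfsg.Agent.H656.TwoPSimple
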