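import Mathlib
import Cfsg.Prelude.Def_Blocks
import Cfsg.Agent.CharactersDeep.NormalSylow
import Cfsg.Agent.H656.TwoPSimple
import Cfsg.Agent.H656.PM2Centre

/-!
# Reduction to perfect groups

`P` is a nonnormal Sylow `p`-subgroup of order `p > 5` and the group has a faithful irreducible
character of degree `p - 2`. The commutator subgroup `G₁` inherits the hypotheses, is perfect and
`G = G₁ Z(G)`.
-/

set_option autoImplicit false
set_option linter.unusedSectionVars false
set_option linter.unusedVariables false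

namespace Cfsg.Agent.H656.PM2Reduction

open Cfsg ZMod
open scoped ComplexConjugate
open Cfsg.Agent.Blocks.Basic
open Cfsg.Agent.H593.D1Local
open Cfsg.Agent.H656.PM2Centre
open Cfsg.Agent.Characters.Core (isIrr_isCharacter isCharacter_apply_inv isIrr_comp
  isCharacter_comp classInner_irr_self classInner_irr_ne isIrr_iff_classInner_self
  isIrr_isClassFunction finite_irr classFunction_eq_sum isCharacter_mul classInner_isNat
  isIrr_apply_one)

variable {G : Type*} [Group G] [Fintype G] {p : ℕ} [hp : Fact p.Prime] {K : Subgroup G}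

theorem zpowers_eq {P : Subgroup G} (hP : Nat.card P = p) {z : G} (hz : z ∈ P)
    (hzo : orderOf z = p) : Subgroup.zpowers z = P := by
  have : Finite P := inferInstance
  apply Subgroup.eq_of_le_of_card_ge
  · rwa [Subgroup.zpowers_le]
  · rw [hP, Nat.card_zpowers, hzo]

/-- **Normal `p'`-subgroups centralize `P`.** -/
theorem le_centralizer (P : Sylow p G) (hP : Nat.card P = p) (ζ : G → ℂ)
    (hζ : IsIrrCharacter G ζ) (hfaith : ∀ g : G, ζ g = ζ 1 → g = 1)
    (hdeg : charDegree ζ + 1 < p) (M : Subgroup G) [hM : M.Normal] (hMp : ¬ p ∣ Nat.card M) :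
    M ≤ Subgroup.centralizer ((P : Subgroup G) : Set G) := by
  classical
  obtain ⟨K, h⟩ := exists_loc P hP
  obtain ⟨z, hzP, hz1, hz⟩ := exists_gen h
  have hPz := zpowers_eq hP hzP hz
  have hζ1 := irr_one_eq_charDegree hζ
  obtain ⟨n, ρ, hρ, rfl⟩ := hζ
  have hn : charDegree ρ.character = n := by
    have h1 : ρ.character 1 = (n : ℂ) := by rw [Representation.char_one]; simp
    rw [h1] at hζ1
    exact_mod_cast hζ1.symm
  rw [hn] at hdeg
  set T : Subgroup G := M ⊔ Subgroup.zpowers z with hT
  have hzT : z ∈ T := by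
    have h1 : Subgroup.zpowers z ≤ T := le_sup_right
    exact h1 (Subgroup.mem_zpowers z)
  have hMT : M ≤ T := le_sup_left
  have := Fintype.ofFinite T
  obtain ⟨s, hs, hker⟩ := Cfsg.Agent.CharactersDeep.NormalSylow.exists_constituents
    (ρ.comp T.subtype)
  have key : ∀ t : T, z * (t : G) * z⁻¹ * (t : G)⁻¹ = 1 := by
    intro t
    apply hfaith
    have h1 : ρ (z * (t : G) * z⁻¹ * (t : G)⁻¹) = 1 := by
      have h2 := hker ((⟨z, hzT⟩ : T) * t * (⟨z, hzT⟩ : T)⁻¹ * t⁻¹) ?_
      · exact h2
      · intro ψ hψ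
        obtain ⟨hirr, d, hd0, hdn, hd⟩ := hs ψ hψ
        apply Cfsg.Agent.CharactersDeep.NormalSylow.apply_commutator_eq hirr hd
        have hMn : (M.subgroupOf T).Normal := inferInstance
        refine Cfsg.Agent.CharactersDeep.SmallDegree.norm_eq_degree p (M.subgroupOf T) ?_
          (⟨z, hzT⟩ : T) 0 ?_ ?_ ?_ ψ hirr d hd (by omega)
        · rw [Nat.card_congr (Subgroup.subgroupOfEquivOfLe hMT).toEquiv, Nat.coprime_comm]
          exact (hp.out.coprime_iff_not_dvd).2 hMp
        · rw [Subgroup.orderOf_mk, hz, zero_add, pow_one]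
        · rw [eq_top_iff]
          intro t _
          obtain ⟨m, hm, y, hy, hmy⟩ := Subgroup.mem_sup_of_normal_left.1
            (show (t : G) ∈ M ⊔ Subgroup.zpowers z from t.2)
          obtain ⟨j, rfl⟩ := Subgroup.mem_zpowers_iff.1 hy
          rw [Subgroup.mem_sup_of_normal_left]
          refine ⟨⟨m, hMT hm⟩, Subgroup.mem_subgroupOf.2 hm, (⟨z, hzT⟩ : T) ^ j,
            Subgroup.zpow_mem_zpowers _ _, Subtype.ext ?_⟩
          push_cast
          exact hmy
        · intro g
          have h2 : (⟨z, hzT⟩ : T) ^ p = 1 := by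
            apply Subtype.ext
            push_cast
            rw [← hz, pow_orderOf_eq_one]
          rw [h2, mul_one, one_mul]
    unfold Representation.character
    rw [h1, map_one ρ]
  intro m hm
  rw [← hPz, Subgroup.mem_centralizer_iff]
  intro y hy
  obtain ⟨j, rfl⟩ := Subgroup.mem_zpowers_iff.1 hy
  have h1 := key ⟨m, hMT hm⟩
  have h2 : Commute z m := by
    show z * m = m * z
    calc z * m = (z * m * z⁻¹ * m⁻¹) * (m * z) := by group
      _ = m * z := by
        have h3 : z * m * z⁻¹ * m⁻¹ = 1 := h1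
        rw [h3, one_mul]
  exact (h2.zpow_left j).eq

/-- **Normal `p'`-subgroups are central.** -/
theorem le_center (P : Sylow p G) (hP : Nat.card P = p) (ζ : G → ℂ)
    (hζ : IsIrrCharacter G ζ) (hfaith : ∀ g : G, ζ g = ζ 1 → g = 1)
    (hdeg : charDegree ζ + 1 < p) (h : Loc p (P : Subgroup G) K)
    (hc : ∀ l : LL (P : Subgroup G) K, ((l : K) : G) ∈ Subgroup.center G)
    (M : Subgroup G) [hM : M.Normal] (hMp : ¬ p ∣ Nat.card M) :
    M ≤ Subgroup.center G := by
  intro m hm
  have h1 := le_centralizer P hP ζ hζ hfaith hdeg M hMp hm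
  obtain ⟨y, l, hyl⟩ := h.dec h1
  have hcomm : Commute (y : G) ((l : K) : G) := h.comm y.2 (mem_LL.1 l.2)
  have hy : (y : G) = 1 := by
    by_contra hy1
    have h2 := h.dvd_orderOf y.2 hy1 l
    rw [← hyl] at h2
    apply hMp
    refine h2.trans ?_
    have h3 : orderOf (⟨m, hm⟩ : M) ∣ Nat.card M := orderOf_dvd_natCard _
    rwa [Subgroup.orderOf_mk] at h3
  rw [hyl, hy, one_mul]
  exact hc l

/-- **Normal subgroups are central or large.** -/
theorem normal_cases (P : Sylow p G) (hP : Nat.card P = p) (hnn : ¬ (P : Subgroup G).Normal)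
    (ζ : G → ℂ) (hζ : IsIrrCharacter G ζ) (hfaith : ∀ g : G, ζ g = ζ 1 → g = 1)
    (hdeg : charDegree ζ + 1 < p) (h : Loc p (P : Subgroup G) K)
    (hc : ∀ l : LL (P : Subgroup G) K, ((l : K) : G) ∈ Subgroup.center G)
    (hi : (LL (P : Subgroup G) K).index = 2) (N : Subgroup G) (hN : N.Normal) :
    N ≤ Subgroup.center G ∨ ((P : Subgroup G) ≤ N ∧ N ⊔ Subgroup.center G = ⊤) := by
  classical
  by_cases hdvd : p ∣ Nat.card N
  swap
  · left
    exact le_center P hP ζ hζ hfaith hdeg h hc N hdvd
  right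
  have hPN := TwoPSimple.sylow_le hP hN hdvd
  refine ⟨hPN, ?_⟩
  have hPc : Nat.card (P : Subgroup G) = p := hP
  set Q : Sylow p N := P.subtype hPN with hQ
  have hQP : (Q : Subgroup N).map N.subtype = (P : Subgroup G) := by
    rw [hQ, Sylow.coe_subtype, Subgroup.map_subgroupOf_eq_of_le hPN]
  have hQN : ¬ (Q : Subgroup N).Normal := by
    intro hn
    apply hnn
    have hch := Sylow.characteristic_of_normal Q hn
    rw [← hQP]
    exact ConjAct.normal_of_characteristic_of_normal
  have hQc : Nat.card (Q : Subgroup N) = p := by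
    have h1 : Nat.card ((Q : Subgroup N).map N.subtype) = p := by rw [hQP]; exact hPc
    rw [← Nat.card_congr ((Q : Subgroup N).equivMapOfInjective N.subtype
      N.subtype_injective).toEquiv] at h1
    exact h1
  -- an element of `N` normalizing but not centralizing `P`
  obtain ⟨n₀, hn₀, hn₀'⟩ : ∃ n₀ ∈ Subgroup.normalizer ((Q : Subgroup N) : Set N),
      n₀ ∉ Subgroup.centralizer ((Q : Subgroup N) : Set N) := by
    by_contra hcon
    push Not at hcon
    have h1 := MonoidHom.ker_transferSylow_isComplement' Q hcon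
    set M := (MonoidHom.transferSylow Q hcon).ker with hM
    have hMn : M.Normal := inferInstance
    have h3 : M.index = p := by
      have h4 := h1.card_mul_card
      have h5 := Subgroup.card_mul_index M
      rw [← h5] at h4
      rw [← hQc]
      exact (Nat.eq_of_mul_eq_mul_left Nat.card_pos h4).symm
    have h2 : ¬ p ∣ Nat.card M := by
      intro hd
      have h4 : p * p ∣ Nat.card G := by
        have h5 : Nat.card M * M.index ∣ Nat.card G := by
          rw [Subgroup.card_mul_index]
          exact Subgroup.card_subgroup_dvd_card _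
        rw [h3] at h5
        exact (Nat.mul_dvd_mul_right hd p).trans h5
      have h5 := P.card_eq_multiplicity
      rw [hPc] at h5
      have h6 : (Nat.card G).factorization p = 1 := by
        exact (Nat.pow_right_injective hp.out.two_le (by simpa using h5)).symm
      have h7 : p ^ 2 ∣ Nat.card G := by rw [pow_two]; exact h4
      rw [hp.out.pow_dvd_iff_le_factorization Nat.card_pos.ne'] at h7
      omega
    have hMm := TwoPSimple.normal_map_complement hN M hMn h3 h2
    have hMc : (M.map N.subtype) ≤ Subgroup.center G := by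
      refine le_center P hP ζ hζ hfaith hdeg h hc (M.map N.subtype) ?_
      rwa [← Nat.card_congr (M.equivMapOfInjective N.subtype N.subtype_injective).toEquiv]
    apply hQN
    refine ⟨fun x hx g => ?_⟩
    obtain ⟨⟨⟨m, hm⟩, ⟨q, hq⟩⟩, hmq⟩ := h1.2 g
    change m * q = g at hmq
    subst hmq
    have hm1 : (m : G) ∈ Subgroup.center G := hMc ⟨m, hm, rfl⟩
    have h4 : m * q * x * (m * q)⁻¹ = q * x * q⁻¹ := by
      apply Subtype.ext
      push_cast
      have h5 := Subgroup.mem_center_iff.1 hm1
      have h6 : (m : G) * q * x * ((m : G) * q)⁻¹ = m * ((q : G) * x * (q : G)⁻¹) * (m : G)⁻¹ := by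
        group
      rw [h6, ← h5, mul_assoc, mul_inv_cancel, mul_one]
    rw [h4]
    exact Q.mul_mem (Q.mul_mem hq hx) (Q.inv_mem hq)
  have hn₀P : (n₀ : G) ∈ Subgroup.normalizer ((P : Subgroup G) : Set G) := by
    rw [Subgroup.mem_normalizer_iff]
    intro y
    rw [Subgroup.mem_normalizer_iff] at hn₀
    constructor
    · intro hy
      have h1 : (⟨y, hPN hy⟩ : N) ∈ (Q : Subgroup N) := by
        rw [hQ, Sylow.coe_subtype, Subgroup.mem_subgroupOf]; exact hy
      have h2 := (hn₀ _).1 h1
      have h3 := Subgroup.mem_map_of_mem N.subtype h2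
      rw [hQP] at h3
      exact h3
    · intro hy
      have hyN : y ∈ N := by
        have h1 := N.mul_mem (N.mul_mem (N.inv_mem n₀.2) (hPN hy)) n₀.2
        have h2 : (n₀ : G)⁻¹ * ((n₀ : G) * y * (n₀ : G)⁻¹) * (n₀ : G) = y := by group
        rwa [h2] at h1
      have h1 : n₀ * ⟨y, hyN⟩ * n₀⁻¹ ∈ (Q : Subgroup N) := by
        rw [hQ, Sylow.coe_subtype, Subgroup.mem_subgroupOf]; exact hy
      have h2 := (hn₀ _).2 h1
      have h3 := Subgroup.mem_map_of_mem N.subtype h2
      rw [hQP] at h3
      exact h3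
  have hn₀C : (n₀ : G) ∉ Subgroup.centralizer ((P : Subgroup G) : Set G) := by
    intro hcc
    apply hn₀'
    rw [Subgroup.mem_centralizer_iff] at hcc ⊢
    intro y hy
    have h3 := Subgroup.mem_map_of_mem N.subtype (show y ∈ (Q : Subgroup N) from hy)
    rw [hQP] at h3
    exact Subtype.ext (hcc _ h3)
  obtain ⟨k₀, hk₀, y₀, hy₀, hn₀eq⟩ := h.mul _ hn₀P
  have hk₀L : (⟨k₀, hk₀⟩ : K) ∉ LL (P : Subgroup G) K := by
    intro hk
    apply hn₀C
    rw [hn₀eq]
    exact mul_mem (mem_LL.1 hk) (h.le_centralizer hy₀)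
  have hk₀N : k₀ ∈ N := by
    have h1 : k₀ = (n₀ : G) * y₀⁻¹ := by rw [hn₀eq]; group
    rw [h1]
    exact N.mul_mem n₀.2 (N.inv_mem (hPN hy₀))
  have hNP : Subgroup.normalizer ((P : Subgroup G) : Set G) ≤ N ⊔ Subgroup.center G := by
    intro n hn
    obtain ⟨k, hk, y, hy, rfl⟩ := h.mul _ hn
    apply mul_mem
    · by_cases hkL : (⟨k, hk⟩ : K) ∈ LL (P : Subgroup G) K
      · exact Subgroup.mem_sup_right (hc ⟨_, hkL⟩)
      · have h1 : (⟨k, hk⟩ : K) * (⟨k₀, hk₀⟩ : K) ∈ LL (P : Subgroup G) K :=
          (Subgroup.mul_mem_iff_of_index_two hi).2 (iff_of_false hkL hk₀L)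
        have h2 : k = (k * k₀) * k₀⁻¹ := by group
        rw [h2]
        exact mul_mem (Subgroup.mem_sup_right (hc ⟨_, h1⟩))
          (Subgroup.mem_sup_left (N.inv_mem hk₀N))
    · exact Subgroup.mem_sup_left (hPN hy)
  have hfr := Sylow.normalizer_sup_eq_top Q
  rw [hQP] at hfr
  rw [eq_top_iff, ← hfr]
  exact sup_le hNP le_sup_left

/-- The restriction of an irreducible character to a subgroup `N` with `N Z(G) = G`. -/
theorem isIrr_restrict (N : Subgroup G) (hN : N ⊔ Subgroup.center G = ⊤) {ζ : G → ℂ}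
    (hζ : IsIrrCharacter G ζ) : IsIrrCharacter N (ζ ∘ N.subtype) := by
  classical
  have := Fintype.ofFinite N
  have hz : ∀ z ∈ Subgroup.center G, ∀ g, ζ (g * z) * conj (ζ (g * z)) = ζ g * conj (ζ g) := by
    intro z hz g
    obtain ⟨ω, hω, h⟩ := Cfsg.Agent.CharactersDeep.SmallDegree.exists_central_mul hζ
      (fun g => Subgroup.mem_center_iff.1 hz g)
    rw [h, map_mul]
    have h1 : ω * conj ω = 1 := by rw [Complex.mul_conj, Complex.normSq_eq_norm_sq, hω]; norm_num
    linear_combination (ζ g * conj (ζ g)) * h1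
  have hsum : ∀ g : G, ∑ a : N, ζ (g * a) * conj (ζ (g * a)) = ∑ a : N, ζ a * conj (ζ a) := by
    intro g
    have hg : g ∈ N ⊔ Subgroup.center G := by rw [hN]; trivial
    rw [Subgroup.mem_sup_of_normal_right] at hg
    obtain ⟨b, hb, z, hz', rfl⟩ := hg
    rw [← Equiv.sum_comp (Equiv.mulLeft (⟨b, hb⟩ : N)) (fun a : N => ζ a * conj (ζ a))]
    refine Finset.sum_congr rfl fun a _ => ?_
    have h1 : b * z * (a : G) = b * a * z := by
      rw [mul_assoc, mul_assoc, Subgroup.mem_center_iff.1 hz' (a : G)]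
    rw [h1, hz z hz']
    rfl
  have h1 : ∑ a : N, ∑ g : G, ζ (g * a) * conj (ζ (g * a)) =
      (Nat.card G : ℂ) * ∑ a : N, ζ a * conj (ζ a) := by
    rw [Finset.sum_comm, Finset.sum_congr rfl fun g _ => hsum g, Finset.sum_const,
      Finset.card_univ, nsmul_eq_mul, Nat.card_eq_fintype_card]
  have h2 : ∑ a : N, ∑ g : G, ζ (g * a) * conj (ζ (g * a)) =
      (Nat.card N : ℂ) * ∑ g : G, ζ g * conj (ζ g) := by
    have h3 : ∀ a : N, ∑ g : G, ζ (g * a) * conj (ζ (g * a)) = ∑ g : G, ζ g * conj (ζ g) :=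
      fun a => Equiv.sum_comp (Equiv.mulRight (a : G)) (fun g => ζ g * conj (ζ g))
    rw [Finset.sum_congr rfl fun a _ => h3 a, Finset.sum_const, Finset.card_univ, nsmul_eq_mul,
      Nat.card_eq_fintype_card]
  have h3 := classInner_irr_self hζ
  rw [classInner_def] at h3
  have hG : (Nat.card G : ℂ) ≠ 0 := by exact_mod_cast Nat.card_pos.ne'
  have hNc : (Nat.card N : ℂ) ≠ 0 := by exact_mod_cast Nat.card_pos.ne'
  rw [isIrr_iff_classInner_self (isCharacter_comp N.subtype (isIrr_isCharacter hζ)),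
    classInner_def]
  rw [h1] at h2
  have h4 : ∑ a : N, (ζ ∘ N.subtype) a * conj ((ζ ∘ N.subtype) a) =
      ∑ a : N, ζ a * conj (ζ a) := rfl
  rw [h4]
  have h5 : ∑ g : G, ζ g * conj (ζ g) = Nat.card G := by
    field_simp at h3
    exact h3
  rw [h5] at h2
  apply mul_left_cancel₀ hG
  rw [mul_one, ← mul_assoc, mul_comm (Nat.card G : ℂ), mul_assoc, h2, ← mul_assoc,
    inv_mul_cancel₀ hNc, one_mul]

/-- **Reduction to perfect groups.** -/
theorem reduce (P : Sylow p G) (hP : Nat.card P = p) (h5 : 5 < p)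
    (hnn : ¬ (P : Subgroup G).Normal) (ζ : G → ℂ) (hζ : IsIrrCharacter G ζ)
    (hfaith : ∀ g : G, ζ g = ζ 1 → g = 1) (hdeg : charDegree ζ = p - 2) :
    ∃ (G₁ : Subgroup G) (P₁ : Sylow p G₁), commutator G₁ = ⊤ ∧ Nat.card P₁ = p ∧
      ¬ (P₁ : Subgroup G₁).Normal ∧ IsIrrCharacter G₁ (ζ ∘ G₁.subtype) ∧
      (∀ g : G₁, (ζ ∘ G₁.subtype) g = (ζ ∘ G₁.subtype) 1 → g = 1) ∧
      charDegree (ζ ∘ G₁.subtype) = p - 2 ∧
      (Subgroup.center G₁ = ⊥ → Nonempty (G ≃* G₁ × Subgroup.center G)) := by
  classical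
  obtain ⟨K, h, hc, hi⟩ := local_structure P hP h5 hnn ζ hζ hfaith hdeg
  have hPc : Nat.card (P : Subgroup G) = p := hP
  rcases normal_cases P hP hnn ζ hζ hfaith (by omega) h hc hi (commutator G) inferInstance with
    h1 | ⟨hPN, hN⟩
  · exfalso
    apply hnn
    have h2 : Group.IsNilpotent G := by
      rw [Subgroup.nilpotent_iff_lowerCentralSeries]
      refine ⟨2, ?_⟩
      rw [show (2 : ℕ) = 1 + 1 from rfl, Subgroup.lowerCentralSeries_succ_eq_bot]
      rw [Subgroup.top_lowerCentralSeries_one]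
      exact h1
    have h3 := Group.normalizerCondition_of_isNilpotent (G := G)
    exact Sylow.normal_of_normalizerCondition h3 P
  refine ⟨commutator G, P.subtype hPN, ?_, ?_, ?_, isIrr_restrict _ hN hζ, ?_, ?_, ?_⟩
  · have h2 : ∀ g : G, ∃ a : commutator G, ∃ z ∈ Subgroup.center G, g = a * z := by
      intro g
      have hg : g ∈ commutator G ⊔ Subgroup.center G := by rw [hN]; trivial
      rw [Subgroup.mem_sup_of_normal_right] at hg
      obtain ⟨b, hb, z, hz', rfl⟩ := hg
      exact ⟨⟨b, hb⟩, z, hz', rfl⟩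
    have h3 : commutator G ≤ (commutator (commutator G)).map (commutator G).subtype := by
      refine Subgroup.commutator_le.2 ?_
      intro g _ g' _
      obtain ⟨a, z, hz, rfl⟩ := h2 g
      obtain ⟨b, w, hw, rfl⟩ := h2 g'
      refine ⟨a * b * a⁻¹ * b⁻¹, Subgroup.commutator_mem_commutator (Subgroup.mem_top a)
        (Subgroup.mem_top b), ?_⟩
      rw [commutatorElement_def]
      show (a : G) * (b : G) * (a : G)⁻¹ * (b : G)⁻¹ = _
      have hz' := Subgroup.mem_center_iff.1 hz
      have hw' := Subgroup.mem_center_iff.1 hw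
      simp only [mul_inv_rev]
      have e1 : (a : G) * z * (b * w) * (z⁻¹ * (a : G)⁻¹) * (w⁻¹ * (b : G)⁻¹) =
          (a : G) * (z * (b * w) * z⁻¹) * (a : G)⁻¹ * (w⁻¹ * (b : G)⁻¹) := by group
      have e2 : z * ((b : G) * w) * z⁻¹ = b * w := by
        rw [← hz' ((b : G) * w), mul_assoc, mul_inv_cancel, mul_one]
      have e3 : (a : G) * (b * w) * (a : G)⁻¹ * (w⁻¹ * (b : G)⁻¹) =
          (a : G) * b * (w * (a : G)⁻¹ * w⁻¹) * (b : G)⁻¹ := by group
      have e4 : w * (a : G)⁻¹ * w⁻¹ = (a : G)⁻¹ := by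
        rw [← hw' ((a : G)⁻¹), mul_assoc, mul_inv_cancel, mul_one]
      rw [e1, e2, e3, e4]
    rw [eq_top_iff]
    intro x _
    obtain ⟨y, hy, hyx⟩ := h3 x.2
    have : y = x := Subtype.ext hyx
    rwa [← this]
  · have h2 : ((P.subtype hPN : Sylow p (commutator G)) : Subgroup (commutator G)) =
        (P : Subgroup G).subgroupOf (commutator G) := Sylow.coe_subtype _ _
    show Nat.card ((P.subtype hPN : Sylow p (commutator G)) : Subgroup (commutator G)) = p
    rw [h2, Nat.card_congr (Subgroup.subgroupOfEquivOfLe hPN).toEquiv]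
    exact hPc
  · intro hn
    apply hnn
    have hch := Sylow.characteristic_of_normal (P.subtype hPN) hn
    have h2 : ((P.subtype hPN : Sylow p (commutator G)) : Subgroup (commutator G)).map
        (commutator G).subtype = (P : Subgroup G) := by
      rw [Sylow.coe_subtype, Subgroup.map_subgroupOf_eq_of_le hPN]
    rw [← h2]
    exact ConjAct.normal_of_characteristic_of_normal
  · intro g hg
    exact Subtype.ext (hfaith g hg)
  · rw [← hdeg, charDegree_def, charDegree_def]
    rfl
  · intro hZ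
    have hf : ∀ (a : commutator G) (z : Subgroup.center G), (a : G) * z = z * a :=
      fun a z => Subgroup.mem_center_iff.1 z.2 a
    let f : commutator G × Subgroup.center G →* G :=
      { toFun := fun q => (q.1 : G) * q.2
        map_one' := by simp
        map_mul' := by
          rintro ⟨a, z⟩ ⟨b, w⟩
          push_cast
          show (a : G) * b * ((z : G) * w) = a * z * (b * w)
          have := hf b z
          calc (a : G) * b * ((z : G) * w) = a * (b * z) * w := by group
            _ = a * (z * b) * w := by rw [this]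
            _ = a * z * (b * w) := by group }
    have hinj : Function.Injective f := by
      rw [injective_iff_map_eq_one]
      rintro ⟨a, z⟩ haz
      have h2 : (a : G) * z = 1 := haz
      have h3 : (a : G) = ((z⁻¹ : Subgroup.center G) : G) := by
        rw [eq_inv_of_mul_eq_one_left h2]
        rfl
      have h4 : a ∈ Subgroup.center (commutator G) := by
        rw [Subgroup.mem_center_iff]
        intro g
        apply Subtype.ext
        push_cast
        rw [h3]
        exact Subgroup.mem_center_iff.1 (z⁻¹).2 g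
      rw [hZ, Subgroup.mem_bot] at h4
      have h5 : z = 1 := by
        rw [h4] at h2
        apply Subtype.ext
        push_cast at h2
        rwa [one_mul] at h2
      rw [h4, h5]
      rfl
    have hsurj : Function.Surjective f := by
      intro g
      have hg : g ∈ commutator G ⊔ Subgroup.center G := by rw [hN]; trivial
      rw [Subgroup.mem_sup_of_normal_right] at hg
      obtain ⟨b, hb, z, hz', rfl⟩ := hg
      exact ⟨(⟨b, hb⟩, ⟨z, hz'⟩), rfl⟩
    exact ⟨(MulEquiv.ofBijective f ⟨hinj, hsurj⟩).symm⟩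

end Cfsg.Agent.H656.PM2Reduction
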