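import Mathlib
import Cfsg.Prelude.Def_Blocks
import Cfsg.Agent.H656.PM2Eq
import Cfsg.Agent.H656.PM2Arith

/-!
# The degree of the companion of `ζ`

`zeta_block` gives characters `χ₁`, `χ₂` of degrees `k p + 1`, `(k + 1) p - 1` with `χ₂ = χ₁ + ζ` on
`p`-regular elements. We show that `k = 0`.
-/

set_option autoImplicit false
set_option linter.unusedSectionVars false
set_option linter.unusedVariables false

namespace Cfsg.Agent.H656.PM2Seven

open Cfsg ZMod
open scoped ComplexConjugate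
open Cfsg.Agent.Blocks.Basic
open Cfsg.Agent.Blocks.CyclicGroup
open Cfsg.Agent.H593.D1Local
open Cfsg.Agent.H593.D1Sec
open Cfsg.Agent.H656.PM2Centre
open Cfsg.Agent.H656.PM2Count
open Cfsg.Agent.H656.PM2Block
open Cfsg.Agent.H656.PM2Eq
open Cfsg.Agent.Characters.Core (isIrr_isCharacter finite_irr isIrr_apply_one isCharacter_iff
  isCharacter_mul isCharacter_conj isCharacter_sum isCharacter_nsmul)

variable {G : Type*} [Group G] [Fintype G] {p : ℕ} [hp : Fact p.Prime] {K : Subgroup G}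
  {P : Sylow p G} {z x : G} (S : Sit P K z x)

include S

/-- **Expansion of `ζ ζ̄`.** -/
theorem expand [Fintype (LL (P : Subgroup G) K)] {ζ : G → ℂ} (hζ : IsIrrCharacter G ζ)
    {θ : LL (P : Subgroup G) K → ℂ} (hθ : ∀ l, θ l * conj (θ l) = 1)
    (hζθ : ∀ (g : G) (l : LL (P : Subgroup G) K), ζ (g * ((l : K) : G)) = ζ g * θ l)
    (χ : IrrCharacter G) {Ω : Type} [Fintype Ω] (Ψ : Ω → IrrCharacter G)
    (hχ1 : (χ : G → ℂ) ≠ 1) (hinj : Function.Injective Ψ)
    (hdisj : ∀ ω, Ψ ω ≠ χ ∧ (Ψ ω : G → ℂ) ≠ 1)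
    (hall : ∀ χ' : IrrCharacter G, (∀ (g : G) (l : LL (P : Subgroup G) K),
        (χ' : G → ℂ) (g * ((l : K) : G)) = (χ' : G → ℂ) g) → (χ' : G → ℂ) ≠ 1 → χ' ≠ χ →
        (∀ ω, χ' ≠ Ψ ω) → ∀ m : ZMod p, m ≠ 0 → (χ' : G → ℂ) (u z m) = 0) :
    ∃ (m : ℕ) (n : Ω → ℕ) (Δ : G → ℂ), IsCharacter G Δ ∧
      (∀ i : ZMod p, i ≠ 0 → Δ (u z i) = 0) ∧
      ∀ g, ζ g * conj (ζ g) = 1 + m * (χ : G → ℂ) g + ∑ ω, (n ω : ℂ) * (Ψ ω : G → ℂ) g + Δ g := by
  classical
  have := finite_irr (G := G)
  have := Fintype.ofFinite (IrrCharacter G)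
  let o : IrrCharacter G := ⟨1, Cfsg.Agent.Characters.Core.isIrr_one⟩
  have hne1 : ∀ ψ : IrrCharacter G, (ψ : G → ℂ) ≠ 1 ↔ ψ ≠ o := by
    intro ψ
    exact ⟨fun hψ h' => hψ (by rw [h']), fun hψ h' => hψ (Subtype.ext h')⟩
  have hΞ : IsCharacter G (fun g => ζ g * conj (ζ g)) :=
    isCharacter_mul (isIrr_isCharacter hζ) (isCharacter_conj (isIrr_isCharacter hζ))
  obtain ⟨c, hc⟩ := isCharacter_iff.1 hΞ
  -- the multiplicities
  have hcin : ∀ ψ : IrrCharacter G, (c ψ : ℂ) =
      classInner (fun g => ζ g * conj (ζ g)) (ψ : G → ℂ) := by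
    intro ψ
    have h1 : (∑ ψ : IrrCharacter G, c ψ • (ψ : G → ℂ)) =
        ∑ ψ : IrrCharacter G, (c ψ : ℂ) • (ψ : G → ℂ) := by
      refine Finset.sum_congr rfl fun ψ _ => ?_
      rw [Nat.cast_smul_eq_nsmul]
    rw [hc, h1, Cfsg.Agent.Characters.Core.classInner_sum_smul_irr]
  have hco : c o = 1 := by
    have h1 := hcin o
    rw [Cfsg.Agent.Characters.Core.classInner_def] at h1
    have h2 := Cfsg.Agent.Characters.Core.classInner_irr_self hζ
    rw [Cfsg.Agent.Characters.Core.classInner_def] at h2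
    have h3 : ∀ g : G, ζ g * conj (ζ g) * conj ((o : G → ℂ) g) = ζ g * conj (ζ g) := by
      intro g
      show ζ g * conj (ζ g) * conj (1 : ℂ) = _
      rw [map_one, mul_one]
    rw [Finset.sum_congr rfl fun g _ => h3 g, h2] at h1
    exact_mod_cast h1
  have hcL : ∀ ψ : IrrCharacter G, c ψ ≠ 0 → ∀ (g : G) (l : LL (P : Subgroup G) K),
        (ψ : G → ℂ) (g * ((l : K) : G)) = (ψ : G → ℂ) g := by
    intro ψ hψ g l
    obtain ⟨ω, hω, hω'⟩ := Cfsg.Agent.CharactersDeep.SmallDegree.exists_central_mul ψ.2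
      (fun g => Subgroup.mem_center_iff.1 (S.cen l) g)
    have h1 : classInner (fun g => ζ g * conj (ζ g)) (ψ : G → ℂ) =
        conj ω * classInner (fun g => ζ g * conj (ζ g)) (ψ : G → ℂ) := by
      rw [Cfsg.Agent.Characters.Core.classInner_def]
      have h2 : ∑ g : G, ζ g * conj (ζ g) * conj ((ψ : G → ℂ) g) =
          conj ω * ∑ g : G, ζ g * conj (ζ g) * conj ((ψ : G → ℂ) g) := by
        rw [Finset.mul_sum]
        rw [← Equiv.sum_comp (Equiv.mulRight ((l : K) : G))]
        refine Finset.sum_congr rfl fun g _ => ?_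
        rw [Equiv.coe_mulRight, hζθ, hω', map_mul, map_mul]
        linear_combination (ζ g * conj (ζ g) * conj ω * conj ((ψ : G → ℂ) g)) * hθ l
      rw [mul_left_comm, ← h2]
    rw [← hcin] at h1
    have h3 : conj ω = 1 := by
      have h4 : (c ψ : ℂ) ≠ 0 := by exact_mod_cast hψ
      apply mul_right_cancel₀ h4
      rw [← h1, one_mul]
    have h5 : ω = 1 := by
      have := congrArg conj h3
      rwa [Complex.conj_conj, map_one] at this
    rw [hω' g, h5, one_mul]
  let R : Finset (IrrCharacter G) := Finset.univ.filter fun ψ => ψ ≠ o ∧ ψ ≠ χ ∧ ∀ ω, ψ ≠ Ψ ω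
  refine ⟨c χ, fun ω => c (Ψ ω), ∑ ψ ∈ R, c ψ • (ψ : G → ℂ),
    isCharacter_sum _ fun ψ _ => isCharacter_nsmul _ (isIrr_isCharacter ψ.2), ?_, ?_⟩
  · intro i hi
    rw [Finset.sum_apply]
    refine Finset.sum_eq_zero fun ψ hψ => ?_
    rw [Finset.mem_filter] at hψ
    rw [Pi.smul_apply]
    by_cases h1 : c ψ = 0
    · rw [h1, zero_smul]
    · rw [hall ψ (hcL ψ h1) ((hne1 ψ).2 hψ.2.1) hψ.2.2.1 hψ.2.2.2 i hi, smul_zero]
  · intro g
    have h1 := congrFun hc g
    rw [Finset.sum_apply] at h1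
    simp only [Pi.smul_apply, nsmul_eq_mul] at h1
    rw [h1, Finset.sum_apply]
    simp only [Pi.smul_apply, nsmul_eq_mul]
    have hχo : χ ≠ o := (hne1 χ).1 hχ1
    have h2 : Finset.univ.filter (fun ψ : IrrCharacter G => ψ ∉ R) =
        insert o (insert χ (Finset.univ.image Ψ)) := by
      ext ψ
      simp only [R, Finset.mem_filter, Finset.mem_univ, true_and, not_and_or, not_not,
        not_forall, Finset.mem_insert, Finset.mem_image]
      constructor
      · rintro (h | h | ⟨ω, h⟩)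
        · exact Or.inl h
        · exact Or.inr (Or.inl h)
        · exact Or.inr (Or.inr ⟨ω, h.symm⟩)
      · rintro (h | h | ⟨ω, h⟩)
        · exact Or.inl h
        · exact Or.inr (Or.inl h)
        · exact Or.inr (Or.inr ⟨ω, h.symm⟩)
    rw [← Finset.sum_filter_add_sum_filter_not Finset.univ (fun ψ : IrrCharacter G => ψ ∈ R), h2,
      Finset.sum_insert, Finset.sum_insert, Finset.sum_image (fun ω _ ω' _ h => hinj h)]
    · have h3 : Finset.univ.filter (fun ψ : IrrCharacter G => ψ ∈ R) = R := by ext; simp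
      rw [h3, hco]
      have h4 : (o : G → ℂ) g = 1 := rfl
      rw [h4]
      push_cast
      ring
    · rw [Finset.mem_image]
      rintro ⟨ω, -, h⟩
      exact (hdisj ω).1 h
    · rw [Finset.mem_insert, Finset.mem_image]
      rintro (h | ⟨ω, -, h⟩)
      · exact hχo h.symm
      · exact (hne1 _).1 (hdisj ω).2 h

omit S [Fintype G] in
theorem seven_arith {m N n A B A' B' : ℤ} (hm : 0 ≤ m) (hN : 0 ≤ N) (hn : 1 ≤ n) (hA' : 0 ≤ A')
    (hB' : 0 ≤ B') (h1 : 10 = 6 * (1 + m) - 2 * N)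
    (h2 : 25 = 1 + m * (7 * n + 1) + N * (7 * n + 2) + 7 * (A' + B'))
    (h3 : 1 = 1 + m * (A - B) + N * (1 + (A - B)) + (A' - B')) (h4 : A + B = n + 1) :
    n = 1 ∧ A - B = 0 := by
  have hN' : N = 3 * m - 2 := by linarith
  have hm1 : 1 ≤ m := by
    by_contra hcon
    have : m = 0 := by omega
    rw [this] at hN'
    omega
  have hm2 : m = 1 := by
    by_contra hcon
    have h5 : 2 ≤ m := by omega
    have h6 : 4 ≤ N := by omega
    nlinarith
  subst hm2
  have hN1 : N = 1 := by omega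
  subst hN1
  have hn1 : n = 1 := by omega
  subst hn1
  refine ⟨rfl, ?_⟩
  omega

/-- **The companion of `ζ` has degree `p - 1`.** -/
theorem k_eq_zero [Fintype (LL (P : Subgroup G) K)] (hperf : commutator G = ⊤) {ζ : G → ℂ}
    (hζ : IsIrrCharacter G ζ)
    (hζ1 : ζ 1 = (p : ℂ) - 2)
    (θ : IrrCharacter (LL (P : Subgroup G) K)) {k : ℕ} {r δ : ℤ}
    (hθ : ∀ (g : G) (l : LL (P : Subgroup G) K), ζ (g * ((l : K) : G)) =
        ζ g * (θ : LL (P : Subgroup G) K → ℂ) l)
    (hδ : δ = 1 ∨ δ = -1) (hζx : ζ x = δ) (hrδ : |r + δ| ≤ k)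
    (hsq : ∑ m : (ZMod p)ˣ, ζ (u z (m : ZMod p)) * conj (ζ (u z (m : ZMod p))) = 2 * p - 4)
    (hE : (r : ℂ) ^ 2 / (k * p + 1) - ((r : ℂ) + δ) ^ 2 / ((k + 1) * p - 1) + 1 / (p - 2) =
        (Nat.card (Subgroup.centralizer ({x} : Set G)) : ℂ) ^ 2 * p /
      ((Nat.card G : ℂ) * Nat.card (LL (P : Subgroup G) K))) : k = 0 := by
  classical
  have := finite_irr (G := G)
  have := Fintype.ofFinite (IrrCharacter G)
  have hp5 := S.gt
  have hp7 : 7 ≤ p := by
    have h1 : p ≠ 6 := by rintro rfl; exact absurd hp.out (by norm_num)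
    omega
  by_contra hk
  have hk1 : 1 ≤ k := Nat.one_le_iff_ne_zero.2 hk
  obtain ⟨χ, a, d, A, B, Ω, hΩ, Ψ, hχ1, ha, hcardΩ, hd1, hχd, hχx, e₁, hχP, hΨ, hΨsum, hinj, hdisj,
    hall, hE0⟩ := principal_block S hperf
  have hER : (r : ℝ) ^ 2 / (k * p + 1) - ((r : ℝ) + δ) ^ 2 / ((k + 1) * p - 1) + 1 / (p - 2) =
        (Nat.card (Subgroup.centralizer ({x} : Set G)) : ℝ) ^ 2 * p /
      ((Nat.card G : ℝ) * Nat.card (LL (P : Subgroup G) K)) := by
    apply Complex.ofReal_injective
    push_cast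
    exact hE
  have hER0 : 1 + a * ((A : ℝ) - B) ^ 2 / d - a * (a + ((A : ℝ) - B)) ^ 2 / (d + a) =
        (Nat.card (Subgroup.centralizer ({x} : Set G)) : ℝ) ^ 2 * p /
      ((Nat.card G : ℝ) * Nat.card (LL (P : Subgroup G) K)) := by
    apply Complex.ofReal_injective
    push_cast
    exact hE0
  have hAB : |(A : ℝ) - B| ≤ (A : ℝ) + B := by
    rw [abs_le]
    constructor <;> linarith [Nat.cast_nonneg (α := ℝ) A, Nat.cast_nonneg (α := ℝ) B]
  have hs : |(r : ℝ) + δ| ≤ k := by exact_mod_cast hrδ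
  have hr : |(r : ℝ)| ≤ |(r : ℝ) + δ| + 1 := by
    have h1 : |(δ : ℝ)| = 1 := by rcases hδ with h | h <;> rw [h] <;> norm_num
    have h2 : (r : ℝ) = (r + δ) - δ := by ring
    calc |(r : ℝ)| = |((r : ℝ) + δ) - δ| := by rw [← h2]
      _ ≤ |(r : ℝ) + δ| + |(δ : ℝ)| := abs_sub _ _
      _ = _ := by rw [h1]
  refine PM2Arith.contra (p := p) (k := k) (r := r) (s := r + δ) (d := d) (v := (A : ℝ) - B)
    (by exact_mod_cast hp7) (by exact_mod_cast hk1) hs hr hER ?_
  rcases ha with rfl | rfl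
  · right
    have hn : ∃ n : ℕ, A + B = n + 1 ∧ 1 ≤ n := by
      have h1 : 2 ≤ A + B := by
        by_contra hcon
        have h2 : (A : ℤ) + B ≤ 1 := by exact_mod_cast (by omega : A + B ≤ 1)
        have h3 : (1 : ℤ) < d := by exact_mod_cast hd1
        have h4 : (p : ℤ) * (A + B) ≤ p * 1 := mul_le_mul_of_nonneg_left h2 (by positivity)
        linarith
      exact ⟨A + B - 1, by omega, by omega⟩
    obtain ⟨n, hn, hn1⟩ := hn
    have hnR : (A : ℝ) + B = n + 1 := by exact_mod_cast hn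
    have hdR : (d : ℝ) = p * n + 1 := by
      have h1 : (d : ℝ) + (p - 1) * (1 : ℤ) = p * (A + B) := by exact_mod_cast e₁
      rw [hnR] at h1
      push_cast at h1
      linarith
    refine ⟨n, by exact_mod_cast hn1, hdR, by rw [← hnR]; exact hAB, ?_, ?_⟩
    · rw [← hER0]
      push_cast
      ring
    · by_cases h11 : 11 ≤ p
      · left; exact_mod_cast h11
      · right
        have hp7' : p = 7 := by
          have h8 : p ≠ 8 := by rintro rfl; exact absurd hp.out (by norm_num)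
          have h9 : p ≠ 9 := by rintro rfl; exact absurd hp.out (by norm_num)
          have h10 : p ≠ 10 := by rintro rfl; exact absurd hp.out (by norm_num)
          omega
        refine ⟨by exact_mod_cast hp7', ?_⟩
        have hζ10 : ζ 1 ≠ 0 := by rw [hζ1]; exact ne_two_three hp5
        have hθθ : ∀ l, (θ : LL (P : Subgroup G) K → ℂ) l *
            conj ((θ : LL (P : Subgroup G) K → ℂ) l) = 1 := by
          intro l
          obtain ⟨ω, hω, hω'⟩ := Cfsg.Agent.CharactersDeep.SmallDegree.exists_central_mul hζ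
            (fun g => Subgroup.mem_center_iff.1 (S.cen l) g)
          have h1 := hω' 1
          rw [hθ, mul_comm] at h1
          have h2 := mul_right_cancel₀ hζ10 h1
          rw [h2, Complex.mul_conj, Complex.normSq_eq_norm_sq, hω]
          norm_num
        obtain ⟨m, n', Δ, hΔ, hΔP, hexp⟩ := expand S hζ hθθ hθ χ Ψ hχ1 hinj hdisj hall
        obtain ⟨A', B', hAB', hΔx⟩ := S.bound hΔ
        rw [sum_const S hΔP, mul_zero, add_zero] at hAB'
        have hNsum : ∀ c : ℂ, ∑ ω, (n' ω : ℂ) * c = (∑ ω, n' ω : ℕ) * c := by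
          intro c
          rw [← Finset.sum_mul]
          push_cast
          rfl
        have hp1 : ((p - 1 : ℕ) : ℂ) = p - 1 := by
          rw [Nat.cast_sub hp.out.one_lt.le]
          push_cast
          rfl
        have E1 : (2 : ℂ) * p - 4 = (p - 1) * (1 + m) - 2 * (∑ ω, n' ω : ℕ) := by
          rw [← hsq, Finset.sum_congr rfl fun (i : (ZMod p)ˣ) _ => hexp (u z (i : ZMod p))]
          rw [Finset.sum_add_distrib, Finset.sum_add_distrib, Finset.sum_add_distrib,
            Finset.sum_const, Finset.card_univ, ZMod.card_units, nsmul_eq_mul, hp1]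
          have h1 : ∑ i : (ZMod p)ˣ, (m : ℂ) * (χ : G → ℂ) (u z (i : ZMod p)) = (p - 1) * m := by
            rw [Finset.sum_congr rfl fun (i : (ZMod p)ˣ) _ => by
              rw [hχP (i : ZMod p) (Units.ne_zero i)], Finset.sum_const, Finset.card_univ,
              ZMod.card_units, nsmul_eq_mul, hp1]
            push_cast
            ring
          have h2 : ∑ i : (ZMod p)ˣ, ∑ ω, (n' ω : ℂ) * (Ψ ω : G → ℂ) (u z (i : ZMod p)) =
              (∑ ω, n' ω : ℕ) * (-2) := by
            rw [Finset.sum_comm, ← hNsum]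
            refine Finset.sum_congr rfl fun ω _ => ?_
            rw [← Finset.mul_sum, hΨsum]
            push_cast
            ring
          have h3 : ∑ i : (ZMod p)ˣ, Δ (u z (i : ZMod p)) = 0 :=
            Finset.sum_eq_zero fun i _ => hΔP _ (Units.ne_zero i)
          rw [h1, h2, h3]
          ring
        have E2 : ((p : ℂ) - 2) * (p - 2) = 1 + m * d + (∑ ω, n' ω : ℕ) * (1 + d) +
            p * (A' + B') := by
          have h1 := hexp 1
          have h2 : ∀ ω, (n' ω : ℂ) * (Ψ ω : G → ℂ) 1 = (n' ω : ℂ) * (1 + d) := by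
            intro ω
            rw [hΨ ω 1 (one_regular S), hχd]
            push_cast
            rfl
          rw [Finset.sum_congr rfl fun ω _ => h2 ω, hNsum, hχd, hAB', hζ1] at h1
          rw [← h1, map_sub, Complex.conj_natCast]
          congr 2
          exact (map_ofNat (starRingEnd ℂ) 2).symm
        have E3 : (1 : ℂ) = 1 + m * (A - B) + (∑ ω, n' ω : ℕ) * (1 + (A - B)) + (A' - B') := by
          have h1 := hexp x
          have h2 : ∀ ω, (n' ω : ℂ) * (Ψ ω : G → ℂ) x = (n' ω : ℂ) * (1 + (A - B)) := by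
            intro ω
            rw [hΨ ω x (x_regular S), hχx]
            push_cast
            rfl
          rw [Finset.sum_congr rfl fun ω _ => h2 ω, hNsum, hχx, hΔx, hζx] at h1
          rw [← h1, map_intCast]
          rcases hδ with h | h <;> rw [h] <;> norm_num
        subst hp7'
        have F1 : (10 : ℤ) = 6 * (1 + m) - 2 * (∑ ω, n' ω : ℕ) := by
          have h1 : ((10 : ℤ) : ℂ) = ((6 * (1 + m) - 2 * (∑ ω, n' ω : ℕ) : ℤ) : ℂ) := by
            push_cast
            push_cast at E1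
            linear_combination E1
          exact_mod_cast h1
        have hdZ : (d : ℤ) = 7 * n + 1 := by exact_mod_cast hdR
        have F2 : (25 : ℤ) = 1 + m * (7 * n + 1) + (∑ ω, n' ω : ℕ) * (7 * n + 2) +
            7 * (A' + B') := by
          have h1 : ((25 : ℤ) : ℂ) = ((1 + m * (7 * n + 1) + (∑ ω, n' ω : ℕ) * (7 * n + 2) +
            7 * (A' + B') : ℤ) : ℂ) := by
            have h2 : (d : ℂ) = 7 * n + 1 := by exact_mod_cast hdZ
            rw [h2] at E2
            push_cast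
            push_cast at E2
            linear_combination E2
          exact_mod_cast h1
        have F3 : (1 : ℤ) = 1 + m * (A - B) + (∑ ω, n' ω : ℕ) * (1 + (A - B)) + (A' - B') := by
          exact_mod_cast E3
        obtain ⟨f1, f2⟩ := seven_arith (Int.natCast_nonneg _) (Int.natCast_nonneg _)
          (by exact_mod_cast hn1) (Int.natCast_nonneg _) (Int.natCast_nonneg _) F1 F2 F3
          (by exact_mod_cast hn)
        exact ⟨by exact_mod_cast f1, by exact_mod_cast f2⟩
  · left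
    refine ⟨(A : ℝ) + B, by positivity, ?_, hAB, ?_⟩
    · have h1 : (d : ℝ) + (p - 1) * (-1 : ℤ) = p * (A + B) := by exact_mod_cast e₁
      push_cast at h1
      linarith
    · rw [← hER0]
      push_cast
      ring

end Cfsg.Agent.H656.PM2Seven
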