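import Mathlib
import Cfsg.Prelude.Def_Blocks
import Cfsg.Agent.H656.PM2Reduction
import Cfsg.Agent.H656.PM2Seven
import Cfsg.Agent.H656.DihedralP

/-!
# Perfect groups with a faithful irreducible character of degree `p - 2`

Such a group (with a nonnormal Sylow `p`-subgroup `P` of order `p > 5`) is simple with
`C_G(P) = P`, `|N_G(P)| = 2 p`, and has an irreducible character `ρ` of degree `p - 1` and
`(p - 1) / 2` irreducible characters equal to `ρ - 1` on `p`-regular elements.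
-/

set_option autoImplicit false
set_option linter.unusedSectionVars false
set_option linter.unusedVariables false

namespace Cfsg.Agent.H656.PM2Simple

open Cfsg ZMod
open scoped ComplexConjugate
open Cfsg.Agent.Blocks.Basic
open Cfsg.Agent.Blocks.CyclicGroup
open Cfsg.Agent.H593.D1Local
open Cfsg.Agent.H593.D1Sec
open Cfsg.Agent.H656.PM2Centre
open Cfsg.Agent.H656.PM2Count
open Cfsg.Agent.H656.PM2Block
open Cfsg.Agent.H656.PM2Eq
open Cfsg.Agent.H656.PM2Seven
open Cfsg.Agent.Characters.Core (isIrr_isCharacter finite_irr isIrr_apply_one)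

variable {G : Type*} [Group G] [Fintype G] {p : ℕ} [hp : Fact p.Prime]

theorem main (P : Sylow p G) (hP : Nat.card P = p) (h5 : 5 < p)
    (hnn : ¬ (P : Subgroup G).Normal) (hperf : commutator G = ⊤) (ζ : G → ℂ)
    (hζ : IsIrrCharacter G ζ)
    (hfaith : ∀ g : G, ζ g = ζ 1 → g = 1) (hdeg : charDegree ζ = p - 2) :
    Subgroup.center G = ⊥ ∧ IsSimpleGroup G ∧ DihedralP.Hyp P ∧
    ∃ (ρ : IrrCharacter G) (Ω : Type) (_ : Fintype Ω) (Ψ : Ω → IrrCharacter G),
      (ρ : G → ℂ) 1 = (p : ℂ) - 1 ∧ (∀ y ∈ (P : Subgroup G), y ≠ 1 → (ρ : G → ℂ) y = -1) ∧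
      2 * Fintype.card Ω = p - 1 ∧ Function.Injective Ψ ∧ (∀ ω, (Ψ ω : G → ℂ) ≠ 1) ∧
      (∀ (ω : Ω) (g : G), ¬ p ∣ orderOf g → (Ψ ω : G → ℂ) g = (ρ : G → ℂ) g - 1) := by
  classical
  obtain ⟨K, z, x, S⟩ := exists_sit P hP h5 hnn hperf ζ hζ hfaith hdeg
  have := Fintype.ofFinite (LL (P : Subgroup G) K)
  have hp0 : (p : ℂ) ≠ 0 := Nat.cast_ne_zero.2 hp.out.ne_zero
  have hζ1 : ζ 1 = (p : ℂ) - 2 := by
    rw [irr_one_eq_charDegree hζ, hdeg, Nat.cast_sub (by omega)]
    push_cast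
    rfl
  obtain ⟨θ, χ₁, χ₂, k, r, δ, hθ, hθ₁, hδ, hζx, hd₁, hd₂, hx₁, hrδ, hP₂, hreg, hsq, hE⟩ :=
    zeta_block S hζ hdeg
  have hk := k_eq_zero S hperf hζ hζ1 θ hθ hδ hζx hrδ hsq hE
  subst hk
  have hχ₁ : (χ₁ : G → ℂ) = 1 := by
    obtain ⟨f, hf⟩ := Cfsg.Agent.Characters.Linear.exists_hom_of_isIrrCharacter χ₁.2
      (by rw [hd₁]; push_cast; ring)
    rw [hf]
    funext g
    have h2 : g ∈ commutator G := by rw [hperf]; trivial
    have h3 := Abelianization.commutator_subset_ker f h2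
    rw [MonoidHom.mem_ker] at h3
    rw [h3]
    rfl
  have hL : ∀ l : LL (P : Subgroup G) K, ((l : K) : G) = 1 := by
    intro l
    apply hfaith
    have h1 := hθ₁ 1 l
    rw [hχ₁] at h1
    have h2 : (θ : LL (P : Subgroup G) K → ℂ) l = 1 := by
      have h3 : (1 : ℂ) = 1 * (θ : LL (P : Subgroup G) K → ℂ) l := h1
      rw [one_mul] at h3
      exact h3.symm
    have h3 := hθ 1 l
    rw [h2, mul_one, one_mul] at h3
    exact h3
  have hLc : Nat.card (LL (P : Subgroup G) K) = 1 := by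
    rw [Nat.card_eq_one_iff_unique]
    refine ⟨⟨fun l l' => Subtype.ext (Subtype.ext ((hL l).trans (hL l').symm))⟩, ⟨1⟩⟩
  have hKc : Nat.card K = 2 := by
    rw [← Subgroup.card_mul_index (LL (P : Subgroup G) K), hLc, S.idx, one_mul]
  have hcent : Subgroup.centralizer ((P : Subgroup G) : Set G) = P := by
    apply le_antisymm
    · intro c hc
      obtain ⟨y, l, hyl⟩ := S.loc.dec hc
      rw [hyl, hL l, mul_one]
      exact y.2
    · exact S.loc.le_centralizer
  have hnorm : Nat.card (Subgroup.normalizer ((P : Subgroup G) : Set G)) = 2 * p := by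
    have h1 := S.loc.card_eq (T := Subgroup.normalizer ((P : Subgroup G) : Set G))
      Subgroup.le_normalizer le_rfl
    have h2 : (Subgroup.normalizer ((P : Subgroup G) : Set G)).subgroupOf K = ⊤ :=
      Subgroup.subgroupOf_eq_top.2 S.loc.le
    rw [h1, h2, Subgroup.card_top, hKc]
  have hHyp : DihedralP.Hyp P := ⟨hP, hcent, hnorm, by omega⟩
  have hcen : Subgroup.center G = ⊥ := by
    rw [Subgroup.eq_bot_iff_forall]
    intro c hc
    have h1 : c ∈ (P : Subgroup G) := by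
      rw [← hcent, Subgroup.mem_centralizer_iff]
      exact fun y _ => Subgroup.mem_center_iff.1 hc y
    by_contra hc1
    apply hnn
    apply normal_of_le_center
    have h2 := Cfsg.Agent.H593.D1Block.zpowers_eq S.loc (S.loc.mem_pow h1 hc1) h1
    rw [← h2, Subgroup.zpowers_le]
    exact hc
  have hsimple : IsSimpleGroup G := by
    have hnt : Nontrivial G := by
      refine ⟨⟨z, 1, ?_⟩⟩
      intro h1
      have h2 := S.ord
      rw [h1, orderOf_one] at h2
      exact hp.out.one_lt.ne h2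
    refine ⟨fun N hN => ?_⟩
    rcases PM2Reduction.normal_cases P hP hnn ζ hζ hfaith (by omega) S.loc S.cen S.idx N hN with
      h1 | ⟨-, h1⟩
    · left
      rw [hcen] at h1
      exact le_bot_iff.1 h1
    · right
      rw [hcen, sup_bot_eq] at h1
      exact h1
  have hρ1 : (χ₂ : G → ℂ) 1 = (p : ℂ) - 1 := by rw [hd₂]; push_cast; ring
  obtain ⟨χ, a, d, A, B, Ω, hΩ, Ψ, hχ1, ha, hcardΩ, hd1, hχd, hχx, e₁, hχP, hΨ, hΨsum, hinj, hdisj,
    hall, hE0⟩ := principal_block S hperf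
  have h10 : (1 : ZMod p) ≠ 0 := one_ne_zero
  have hχ₂1 : (χ₂ : G → ℂ) ≠ 1 := by
    intro h1
    rw [h1] at hρ1
    have h2 : (1 : ℂ) = (p : ℂ) - 1 := hρ1
    have h3 : (p : ℂ) = ((2 : ℕ) : ℂ) := by push_cast; linear_combination -h2
    have h4 : p = 2 := by exact_mod_cast h3
    omega
  have hχ₂ : χ₂ = χ := by
    by_contra hcon
    by_cases hω : ∀ ω, χ₂ ≠ Ψ ω
    · have h1 := hall χ₂ (fun g l => by rw [hL l, mul_one]) hχ₂1 hcon hω 1 h10
      rw [hP₂ 1 h10] at h1
      norm_num at h1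
    · push Not at hω
      obtain ⟨ω, hω⟩ := hω
      have h1 := hΨsum ω
      rw [← hω, Finset.sum_congr rfl fun (m : (ZMod p)ˣ) _ => hP₂ (m : ZMod p) (Units.ne_zero m),
        Finset.sum_const, Finset.card_univ, ZMod.card_units, nsmul_eq_mul,
        Nat.cast_sub hp.out.one_lt.le] at h1
      have h2 : ((p : ℤ) - 1) * -1 = -2 * a := by exact_mod_cast h1
      rcases ha with h | h <;> rw [h] at h2 <;> omega
  have haC : (a : ℂ) = -1 := by
    rw [← hχP 1 h10, ← hχ₂, hP₂ 1 h10]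
  refine ⟨hcen, hsimple, hHyp, χ₂, Ω, hΩ, Ψ, hρ1, ?_, hcardΩ, hinj, fun ω => (hdisj ω).2, ?_⟩
  · intro y hy hy1
    obtain ⟨i, rfl⟩ := S.exists_u hy
    apply hP₂
    rintro rfl
    rw [u_zero] at hy1
    exact hy1 rfl
  · intro ω g hg
    rw [hΨ ω g hg, haC, hχ₂]
    ring

end Cfsg.Agent.H656.PM2Simple
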